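import Mathlib
import Cfsg.Agent.UnitMono91.Closure

/-!
In degree six a non-monomial element fixing an axis yields a centre of transvections.
-/

set_option autoImplicit false
set_option linter.unusedSectionVars false

namespace CfsgLib.SUSix96.Mono

open Matrix CfsgLib.UnitMono CfsgLib.UnitMono91 CfsgLib.TransvGL CfsgLib.MonoBasics CfsgLib.UnitCentres
  CfsgLib.PseudoRefl CfsgLib.CircleSums

variable {ι : Type} [Fintype ι] [DecidableEq ι] {F : Type*} [Field F] [Fintype F]
variable {q : ℕ} {σ : F ≃+* F} {M : Subgroup (GL ι F)}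

local notation "ax" i:max => (Pi.single i (1 : F) : ι → F)

variable (hO : Over q σ M) {a : ι}
include hO

/-- A vector of the closure may be scaled by an element of the circle. -/
theorem pc_smul {u : ι → F} (h : Pc hO.std M a u) {c : F} (hc : Cir σ c) : Pc hO.std M a (c • u) := by
  obtain ⟨hu, hua, hP⟩ := h
  have hf := hO.std.isUnitary (ι := ι)
  have hcu : sf σ (c • u) (c • u) = 1 := by
    rw [hf.smul_left, smul_right hf, hu, mul_one]; exact hc
  refine ⟨hcu, by rw [Pi.smul_apply, hua, smul_zero], fun ε hε => ?_⟩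
  rw [uRefl_smul hO.std hu hc hcu]
  exact hP ε hε

/-- Two vectors of the closure with product one differ by a centre. -/
theorem centre_of_pair {u v : ι → F} (hPu : Pc hO.std M a u) (hPv : Pc hO.std M a v) (hvu : sf σ v u = 1)
    (hne : v ≠ u) : ∃ w, Centre hO.std.isUnitary M w ∧ w a = 0 ∧ w ≠ 0 := by
  have hf := hO.std.isUnitary (ι := ι)
  obtain ⟨huu, hua, hPu'⟩ := hPu
  obtain ⟨hvv, hva, hPv'⟩ := hPv
  set w := v - u with hw
  have huv : sf σ u v = 1 := by rw [hf.herm u v, hvu, map_one]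
  have hwu : sf σ w u = 0 := by rw [hw, UnitCentres.sub_left hf, hvu, huu, sub_self]
  have hww : sf σ w w = 0 := by
    rw [hw, UnitCentres.sub_left hf, UnitCentres.sub_right hf, UnitCentres.sub_right hf, hvv, hvu, huv,
      huu]
    ring
  refine ⟨w, ?_, by rw [hw, Pi.sub_apply, hva, hua, sub_zero], sub_ne_zero.2 hne⟩
  refine centre_of_sie hO.std huu hwu hww fun z hz => ?_
  set ε : Fˣ := (Units.mk0 z hz.ne_zero)⁻¹ with hε
  have hεc : Cir σ (ε : F) := by rw [hε, Units.val_inv_eq_inv_val]; exact hz.inv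
  have hεc' : Cir σ ((ε⁻¹ : Fˣ) : F) := by rw [hε, inv_inv]; exact hz
  refine ⟨_, M.mul_mem (hPu' ε hεc) (hPv' ε⁻¹ hεc'), fun x => ?_⟩
  have hcancel : ∀ y, ((uRefl hO.std (sf_ax_self (σ := σ) a) ε⁻¹ : Matrix ι ι F)) *ᵥ y =
      y + (((ε⁻¹ : Fˣ) : F) - 1) • (y a • ax a) := fun y => by
    rw [uRefl_mulVec, sf_ax_right, smul_smul]
  simp only [Units.val_mul, ← mulVec_mulVec, uRefl_mulVec, sf_ax_right, inv_inv, mulVec_add,
    mulVec_smul, hf.add_left, hf.smul_left, hvu, huu, sf_ax_left, hua, hva, map_zero, Pi.add_apply,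
    Pi.smul_apply, smul_eq_mul, Pi.single_eq_same]
  rw [show v = w + u by rw [hw]; abel, UnitCentres.add_right hf, hε]
  simp only [Units.val_inv_eq_inv_val, Units.val_mk0, inv_inv, map_sub, map_one, hz.conj_eq]
  have hz0 := hz.ne_zero
  match_scalars <;> first | ring1 | (field_simp; ring1) | (field_simp; done)

variable (hn : 6 ≤ Fintype.card ι)
include hn

theorem exists_wide {h : GL ι F} (hh : h ∈ M) (hnm : ¬ IsMono h) {c : F}
    (hha : (h : Matrix ι ι F) *ᵥ ax a = c • ax a)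
    (hno : ∀ u, Pc hO.std M a u → ∀ i j, i ≠ j → u i ≠ 0 → u j ≠ 0 → u i * σ (u i) ≠ 1) :
    ∃ u, Pc hO.std M a u ∧ ∃ S : Finset ι, 5 ≤ S.card ∧ ∀ i, i ∈ S ↔ u i ≠ 0 := by
  classical
  have hf := hO.std.isUnitary (ι := ι)
  have hcc : Cir σ c := by
    have := hO.iso h hh (ax a) (ax a)
    rwa [hha, hf.smul_left, smul_right hf, sf_ax_self, mul_one] at this
  set sp : (ι → F) → Finset ι := fun u => Finset.univ.filter fun i => u i ≠ 0 with hsp
  set U := Finset.univ.filter fun u => Pc hO.std M a u with hU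
  haveI : Nonempty ι := ⟨a⟩
  obtain ⟨i, hi⟩ : ∃ i, ∀ k, (h : Matrix ι ι F) *ᵥ ax i ∉ Submodule.span F {ax k} := by
    by_contra hc
    push Not at hc
    exact hnm hc
  have hia : i ≠ a := fun e => hi a (by rw [e, hha]; exact Submodule.smul_mem _ _ (Submodule.mem_span_singleton_self _))
  have hu0 : Pc hO.std M a ((h : Matrix ι ι F) *ᵥ ax i) := (Pc.axis hO hia).image hO hh hcc hha
  have h2 : 2 ≤ (sp ((h : Matrix ι ι F) *ᵥ ax i)).card := by
    by_contra hlt
    push Not at hlt
    obtain ⟨k, hk⟩ := Finset.card_le_one_iff_subset_singleton.1 (Nat.lt_succ_iff.1 hlt)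
    refine hi k (mem_axis_iff.2 fun j hj => ?_)
    by_contra hne
    exact hj (Finset.mem_singleton.1 (hk (Finset.mem_filter.2 ⟨Finset.mem_univ _, hne⟩)))
  obtain ⟨u, huU, humax⟩ := Finset.exists_max_image U (fun u => (sp u).card)
    ⟨_, Finset.mem_filter.2 ⟨Finset.mem_univ _, hu0⟩⟩
  have hu : Pc hO.std M a u := (Finset.mem_filter.1 huU).2
  have hs2 : 2 ≤ (sp u).card := h2.trans (humax _ (Finset.mem_filter.2 ⟨Finset.mem_univ _, hu0⟩))
  refine ⟨u, hu, sp u, ?_, fun i => by simp [hsp]⟩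
  by_contra hlt
  push Not at hlt
  obtain ⟨huu, hua, -⟩ := hu
  obtain ⟨ε0, hε0, hε2⟩ := exists_cir_sq_ne_one hO.std.card hO.std.frob
  set ε : Fˣ := Units.mk0 ε0 hε0.ne_zero with hε
  have hεi : Cir σ ((ε⁻¹ : Fˣ) : F) := by rw [Units.val_inv_eq_inv_val]; exact hε0.inv
  have hpick : ∀ T : Finset ι, T.card = 0 → ∃ p, p ∉ sp u ∧ p ≠ a ∧ p ∉ T := by
    intro T hT
    obtain ⟨p, -, hp⟩ := Finset.exists_mem_notMem_of_card_lt_card (s := sp u ∪ T ∪ {a})
      (t := (Finset.univ : Finset ι)) (by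
        have := Finset.card_union_le (sp u ∪ T) {a}
        have := Finset.card_union_le (sp u) T
        rw [Finset.card_singleton] at *
        rw [Finset.card_univ]
        omega)
    simp only [Finset.mem_union, Finset.mem_singleton, not_or] at hp
    exact ⟨p, hp.1.1, hp.2, hp.1.2⟩
  have hne1 : (ε : F) ≠ 1 := fun e => hε2 (by rw [show ε0 = 1 from e, one_pow])
  obtain ⟨i, hi, j₀, hj₀, hij₀⟩ := Finset.one_lt_card.1 (show 1 < (sp u).card by omega)
  have hNi : u i * σ (u i) ≠ 1 :=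
    hno u (Finset.mem_filter.1 huU).2 i j₀ hij₀ (Finset.mem_filter.1 hi).2 (Finset.mem_filter.1 hj₀).2
  · have hiu : u i ≠ 0 := (Finset.mem_filter.1 hi).2
    have hia : i ≠ a := fun e => hiu (e ▸ hua)
    obtain ⟨p, hp, hpa, -⟩ := hpick ∅ (by simp)
    have hup : u p = 0 := by simpa [hsp] using hp
    have hip : i ≠ p := fun e => hiu (e ▸ hup)
    obtain ⟨g, hg, s, hs, hgj⟩ := hO.exists_perm (Equiv.swap i p) a
    have hga : (g : Matrix ι ι F) *ᵥ ax a = (s : F) • ax a := by
      rw [hgj, if_pos rfl, Equiv.swap_apply_of_ne_of_ne (Ne.symm hia) (Ne.symm hpa)]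
    set u' := (g : Matrix ι ι F) *ᵥ u with hu'
    have hPu' : Pc hO.std M a u' :=
      (show Pc hO.std M a u from (Finset.mem_filter.1 huU).2).image hO hg hs hga
    have hu'e : u' = u - u i • ax i + u i • ax p := by
      rw [hu', ← Finset.univ_sum_single u, mulVec_sum, Finset.univ_sum_single u]
      funext j
      rw [Finset.sum_apply]
      have : ∀ k, ((g : Matrix ι ι F) *ᵥ Pi.single k (u k)) j =
          u k * (ax (Equiv.swap i p k)) j := fun k => by
        rw [show Pi.single k (u k) = u k • ax k by simp [← Pi.single_smul'], mulVec_smul, hgj]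
        by_cases hk : k = a
        · subst hk; simp [hua]
        · simp [hk]
      simp only [this]
      rw [Finset.sum_eq_single (Equiv.swap i p j) (fun k _ hk => by
        rw [Pi.single_eq_of_ne (fun e => hk (by rw [e, Equiv.swap_apply_self])), mul_zero]) (by simp),
        Equiv.swap_apply_self, Pi.single_eq_same, mul_one]
      rcases eq_or_ne j i with rfl | hji
      · simp [hup, hip]
      rcases eq_or_ne j p with rfl | hjp
      · simp [hup, Ne.symm hip]
      · simp [Equiv.swap_apply_of_ne_of_ne hji hjp, hji, hjp]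
    have hK : sf σ u' u = 1 - u i * σ (u i) := by
      rw [hu'e, hf.add_left, UnitCentres.sub_left hf, hf.smul_left, hf.smul_left, huu, sf_ax_left,
        sf_ax_left, hup, map_zero, mul_zero, add_zero]
    set K := 1 - u i * σ (u i)
    have hK0 : K ≠ 0 := sub_ne_zero.2 (Ne.symm hNi)
    obtain ⟨δ, hδ, hδ1, hδK⟩ : ∃ δ : Fˣ, Cir σ (δ : F) ∧ (δ : F) ≠ 1 ∧ 1 + ((δ : F) - 1) * K ≠ 0 := by
      by_cases h1 : 1 + ((ε : F) - 1) * K = 0
      · refine ⟨ε⁻¹, hεi, ?_, fun h2 => ?_⟩
        · rw [Units.val_inv_eq_inv_val]; exact fun e => hne1 (inv_eq_one.1 e)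
        · have h3 : ((ε : F) - ((ε⁻¹ : Fˣ) : F)) * K = 0 := by linear_combination h1 - h2
          refine hε2 ?_
          rw [Units.val_inv_eq_inv_val] at h3
          have h4 := sub_eq_zero.1 ((mul_eq_zero.1 h3).resolve_right hK0)
          have := hε0.ne_zero
          show (ε : F) ^ 2 = 1
          rw [sq]
          nth_rewrite 2 [h4]
          exact mul_inv_cancel₀ this
      · exact ⟨ε, hε0, hne1, h1⟩
    have hv := Pc.reflect hO (show Pc hO.std M a u from (Finset.mem_filter.1 huU).2) hPu' hδ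
    rw [hK] at hv
    set v := u' + (((δ : F) - 1) * K) • u
    have hsub : insert p (sp u) ⊆ sp v := by
      intro j hj
      refine Finset.mem_filter.2 ⟨Finset.mem_univ _, ?_⟩
      simp only [v, hu'e, Pi.add_apply, Pi.sub_apply, Pi.smul_apply, smul_eq_mul]
      rcases Finset.mem_insert.1 hj with rfl | hj
      · simp [hup, Ne.symm hip, hiu]
      · have huj : u j ≠ 0 := (Finset.mem_filter.1 hj).2
        have hjp : j ≠ p := fun e => huj (e ▸ hup)
        rcases eq_or_ne j i with rfl | hji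
        · simp [hjp, hiu, hK0, sub_ne_zero.2 hδ1]
        · simp [hjp, hji]
          intro h0
          exact hδK ((mul_eq_zero.1 (show (1 + ((δ : F) - 1) * K) * u j = 0 by
            linear_combination h0)).resolve_right huj)
    have h3 := Finset.card_le_card hsub
    rw [Finset.card_insert_of_notMem hp] at h3
    have h4 := humax v (Finset.mem_filter.2 ⟨Finset.mem_univ _, hv⟩)
    omega

/-- A centre orthogonal to the axis `a`. -/
theorem exists_centre (hq3 : 3 ≤ q) {h : GL ι F} (hh : h ∈ M) (hnm : ¬ IsMono h) {c : F}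
    (hha : (h : Matrix ι ι F) *ᵥ ax a = c • ax a) :
    ∃ w, Centre hO.std.isUnitary M w ∧ w a = 0 ∧ w ≠ 0 := by
  classical
  by_cases hyes : ∃ u, Pc hO.std M a u ∧ ∃ i j, i ≠ j ∧ u i ≠ 0 ∧ u j ≠ 0 ∧ u i * σ (u i) = 1
  · obtain ⟨u, hPu, i, j, hij, hi, hj, hN⟩ := hyes
    have hia : i ≠ a := by
      rintro rfl
      exact hi hPu.2.1
    have hv := pc_smul hO (Pc.axis hO hia) (c := u i) hN
    refine centre_of_pair hO hPu hv ?_ fun e => ?_
    · rw [hO.std.isUnitary.smul_left, sf_ax_left]; exact hN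
    · have := congrFun e j
      rw [Pi.smul_apply, Pi.single_eq_of_ne (Ne.symm hij), smul_zero] at this
      exact hj this.symm
  push Not at hyes
  obtain ⟨u, hPu, S, hS5, hS⟩ := exists_wide hO hn hh hnm hha fun u hu i j h1 h2 h3 => hyes u hu i j h1 h2 h3
  obtain ⟨huu, hua, -⟩ := id hPu
  obtain ⟨T, hTS, hT4⟩ := Finset.exists_subset_card_eq (s := S) (n := 4) (by omega)
  obtain ⟨i0, hi0, hi0T⟩ := Finset.exists_mem_notMem_of_card_lt_card (s := T) (t := S) (by omega)
  obtain ⟨ε0, hε0, hε2⟩ := exists_cir_sq_ne_one hO.std.card hO.std.frob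
  set N : ι → F := fun i => u i * σ (u i) with hN
  have hN0 : ∀ i ∈ T, N i ≠ 0 := fun i hi => by
    have := (hS i).1 (hTS hi)
    exact mul_ne_zero this (by simpa using this)
  obtain ⟨x1, x2, x3, x4, hne12, hne13, hne14, hne23, hne24, hne34, hTe⟩ := Finset.card_eq_four.1 hT4
  obtain ⟨t, htc, htsum, htne⟩ : ∃ t : ι → Fˣ, (∀ i, Cir σ (t i : F)) ∧ ∑ i, (t i : F) * N i = 1 ∧
      ∃ i ∈ S, (t i : F) ≠ 1 := by
    set R := 1 - ε0 * N i0 - ∑ i ∈ Finset.univ \ insert i0 T, N i
    obtain ⟨y1, y2, y3, y4, h1, h2, h3, h4, h⟩ := four_sum hO.std.card hO.std.frob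
      (hN0 x1 (by simp [hTe])) (hN0 x2 (by simp [hTe])) (hN0 x3 (by simp [hTe]))
      (hN0 x4 (by simp [hTe])) R
    let t : ι → Fˣ := fun i => if i = x1 then Units.mk0 y1 h1.ne_zero else if i = x2 then
      Units.mk0 y2 h2.ne_zero else if i = x3 then Units.mk0 y3 h3.ne_zero else if i = x4 then
      Units.mk0 y4 h4.ne_zero else if i = i0 then Units.mk0 ε0 hε0.ne_zero else 1
    have hi0x : i0 ≠ x1 ∧ i0 ≠ x2 ∧ i0 ≠ x3 ∧ i0 ≠ x4 := by
      rw [hTe] at hi0T
      simpa only [Finset.mem_insert, Finset.mem_singleton, not_or] using hi0T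
    refine ⟨t, fun i => ?_, ?_, i0, hi0, ?_⟩
    · simp only [t]
      split_ifs
      exacts [h1, h2, h3, h4, hε0, cir_one σ]
    · rw [← Finset.sum_sdiff (Finset.subset_univ (insert i0 T)), Finset.sum_insert hi0T]
      have e1 : ∑ i ∈ Finset.univ \ insert i0 T, (t i : F) * N i =
          ∑ i ∈ Finset.univ \ insert i0 T, N i := by
        refine Finset.sum_congr rfl fun i hi => ?_
        rw [hTe] at hi
        simp only [Finset.mem_sdiff, Finset.mem_insert, Finset.mem_singleton, not_or] at hi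
        simp [t, hi.2.1, hi.2.2.1, hi.2.2.2.1, hi.2.2.2.2.1, hi.2.2.2.2.2]
      rw [e1, hTe, Finset.sum_insert (by simp [hne12, hne13, hne14]),
        Finset.sum_insert (by simp [hne23, hne24]),
        Finset.sum_insert (by simp [hne34]), Finset.sum_singleton]
      simp [t, hi0x.1, hi0x.2.1, hi0x.2.2.1, hi0x.2.2.2, Ne.symm hne12, Ne.symm hne13, Ne.symm hne14,
        Ne.symm hne23, Ne.symm hne24, Ne.symm hne34]
      have hdec : ∑ i, N i = N i0 + ∑ i ∈ ({x1, x2, x3, x4} : Finset ι), N i +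
          ∑ i ∈ Finset.univ \ insert i0 T, N i := by
        rw [← Finset.sum_sdiff (Finset.subset_univ (insert i0 T)), Finset.sum_insert hi0T, hTe]
        ring
      linear_combination h + hdec
    · simp [t, hi0x.1, hi0x.2.1, hi0x.2.2.1, hi0x.2.2.2]
      exact fun e => hε2 (by rw [e, one_pow])
  obtain ⟨g, hg, ⟨cg, hcg, hga⟩, hgi⟩ := hO.dg_fix91 t htc a
  set v := (g : Matrix ι ι F) *ᵥ u with hv
  have hPv : Pc hO.std M a v := hPu.image hO hg hcg hga
  obtain ⟨hvv, hva, hPv'⟩ := id hPv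
  have hvi : ∀ i, v i = (t i : F) * u i := fun i => by
    by_cases hi : i = a
    · rw [hi, hva, hua, mul_zero]
    · exact hgi u i hi
  have hvu : sf σ v u = 1 := by
    rw [sf, ← htsum]
    exact Finset.sum_congr rfl fun i _ => by rw [hvi, hN]; ring
  refine centre_of_pair hO hPu hPv hvu fun e => ?_
  obtain ⟨i, hi, hti⟩ := htne
  have h1 := congrFun e i
  rw [hvi] at h1
  exact hti (mul_right_cancel₀ ((hS i).1 hi) (h1.trans (one_mul (u i)).symm))

end CfsgLib.SUSix96.Mono
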