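import Mathlib
import Cfsg.Agent.SUSix96.Mono.Data
import Cfsg.Agent.UnitMono91.Solve

/-!
For the primes five and eleven: six inequivalent circle tuples with product one annihilating six given norms.
-/

set_option autoImplicit false

namespace CfsgLib.SUSix96.Mono

open CfsgLib.UnitMono CfsgLib.UnitMono91 CfsgLib.CircleSums

/-- Non-decreasing lists of length `n` with entries in `[lo, p)`. -/
def sortedLists (p : ℕ) : ℕ → ℕ → List (List ℕ)
  | 0, _ => [[]]
  | n + 1, lo => (List.range' lo (p - lo)).flatMap fun a => (sortedLists p n a).map (a :: ·)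

theorem mem_sortedLists {p : ℕ} : ∀ {L : List ℕ} {lo : ℕ}, L.Pairwise (· ≤ ·) →
    (∀ a ∈ L, lo ≤ a ∧ a < p) → L ∈ sortedLists p L.length lo
  | [], lo, _, _ => by simp [sortedLists]
  | b :: L, lo, hs, hb => by
    rw [List.pairwise_cons] at hs
    have h1 := hb b (List.mem_cons_self ..)
    rw [List.length_cons, sortedLists, List.mem_flatMap]
    refine ⟨b, List.mem_range'_1.2 ⟨h1.1, by omega⟩, List.mem_map.2 ⟨L, ?_, rfl⟩⟩
    exact mem_sortedLists hs.2 fun a ha => ⟨hs.1 a ha, (hb a (List.mem_cons_of_mem _ ha)).2⟩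

/-- The power of index `j` in a table. -/
def cAt (T : List (ℕ × ℕ)) (j : ℕ) : ℕ × ℕ := T.getD (j % T.length) (1, 0)

/-- A tuple of exponents solves the weighted equation and has product one. -/
def solOk (p : ℕ) (T : List (ℕ × ℕ)) (A e : List ℕ) : Bool :=
  decide ((∑ i : Fin 6, e.getD i 0) % T.length = 0) &&
  decide ((∑ i : Fin 6, A.getD i 0 * (cAt T (e.getD i 0)).1) % p = 0) &&
  decide ((∑ i : Fin 6, A.getD i 0 * (cAt T (e.getD i 0)).2) % p = 0)

/-- Two tuples are not proportional. -/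
def sepOk (T : List (ℕ × ℕ)) (e e' : List ℕ) : Bool :=
  (List.range 6).any fun i => decide (cAt T (e.getD i 0 + e'.getD 0 0) ≠ cAt T (e'.getD i 0 + e.getD 0 0))

/-- All six tuples of an entry are good. -/
def entryOk (p : ℕ) (T : List (ℕ × ℕ)) (x : List ℕ × List (List ℕ)) : Bool :=
  (List.range 6).all fun s => solOk p T x.1 (x.2.getD s []) &&
    (List.range s).all fun s' => sepOk T (x.2.getD s []) (x.2.getD s' [])

/-- The table lists the powers of an element of the circle. -/
def tblOk (p : ℕ) (T : List (ℕ × ℕ)) : Bool :=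
  decide (0 < T.length) && decide (cAt T 0 = (1, 0)) &&
  ((List.range T.length).all fun j => decide (cAt T (j + 1) =
    (((cAt T j).1 * (cAt T 1).1 + 2 * ((cAt T j).2 * (cAt T 1).2)) % p,
      ((cAt T j).1 * (cAt T 1).2 + (cAt T j).2 * (cAt T 1).1) % p))) &&
  decide (((cAt T 1).1 * (cAt T 1).1) % p = (1 + 2 * ((cAt T 1).2 * (cAt T 1).2)) % p) &&
  ((List.range T.length).all fun j => decide ((cAt T j).1 < p) && decide ((cAt T j).2 < p))

theorem tbl5 : tblOk 5 circ5 = true := by decide +kernel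

theorem tbl11 : tblOk 11 circ11 = true := by decide +kernel

theorem entries5 : sols5.all (entryOk 5 circ5) = true := by decide +kernel

theorem entries11 : sols11.all (entryOk 11 circ11) = true := by decide +kernel

theorem cover5 : (sortedLists 5 6 1).filter (fun A => decide (A.sum % 5 = 1)) = sols5.map Prod.fst := by
  decide +kernel

theorem cover11 : (sortedLists 11 6 1).filter (fun A => decide (A.sum % 11 = 1)) = sols11.map Prod.fst := by
  decide +kernel

variable {F : Type*} [Field F] [Fintype F] {q : ℕ} {σ : F ≃+* F}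

/-- A square root of two negated by `σ`. -/
theorem exists_root_two (hS : Std q σ) [CharP F q] {h : ℕ} (hq : q = 2 * h + 1) (h2 : (2 : F) ≠ 0)
    (he : 2 ^ h % q = q - 1) : ∃ w : F, w ^ 2 = 2 ∧ σ w = -w := by
  have hm : ((2 : F)) ^ h = -1 := by
    have hq0 : 1 ≤ q := by omega
    have h0 : ((2 ^ h : ℕ) : F) = ((q - 1 : ℕ) : F) := by
      rw [CharP.cast_eq_iff_mod_eq F q, he, Nat.mod_eq_of_lt (by omega)]
    rw [Nat.cast_pow, Nat.cast_sub hq0, CharP.cast_eq_zero F q, zero_sub, Nat.cast_one] at h0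
    exact_mod_cast h0
  have hc : ringChar F ≠ 2 := fun e => h2 (by
    have h0 := ringChar.Nat.cast_ringChar (R := F)
    rw [e] at h0
    exact_mod_cast h0)
  obtain ⟨w, hw⟩ : IsSquare (2 : F) := by
    rw [FiniteField.isSquare_iff hc h2, hS.card, hq,
      show (2 * h + 1) ^ 2 / 2 = h * (2 * h + 2) by
        rw [show (2 * h + 1) ^ 2 = 1 + 2 * (h * (2 * h + 2)) by ring, Nat.add_mul_div_left _ _ two_pos]
        simp,
      pow_mul, hm, show 2 * h + 2 = 2 * (h + 1) by ring, pow_mul]
    simp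
  refine ⟨w, by rw [hw, sq], ?_⟩
  rw [hS.frob, hq, pow_succ, pow_mul, sq, ← hw, hm, neg_one_mul]

/-- Elements fixed by `σ` are images of natural numbers below the prime. -/
theorem exists_cast (hS : Std q σ) [CharP F q] {x : F} (hx : σ x = x) : ∃ j < q, (j : F) = x := by
  classical
  have h1 := CircleSums.card_fixed hS.card hS.frob
  have h2 : (Finset.range q).image (fun j : ℕ => (j : F)) = Finset.univ.filter fun z : F => σ z = z := by
    refine Finset.eq_of_subset_of_card_le (fun z hz => ?_) ?_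
    · obtain ⟨j, -, rfl⟩ := Finset.mem_image.1 hz
      exact Finset.mem_filter.2 ⟨Finset.mem_univ _, map_natCast σ j⟩
    · rw [h1, Finset.card_image_of_injOn, Finset.card_range]
      intro a ha b hb hab
      rw [Finset.coe_range, Set.mem_Iio] at ha hb
      have := (CharP.cast_eq_iff_mod_eq F q).1 hab
      rwa [Nat.mod_eq_of_lt ha, Nat.mod_eq_of_lt hb] at this
  have : x ∈ (Finset.range q).image (fun j : ℕ => (j : F)) := by
    rw [h2]; exact Finset.mem_filter.2 ⟨Finset.mem_univ _, hx⟩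
  obtain ⟨j, hj, rfl⟩ := Finset.mem_image.1 this
  exact ⟨j, Finset.mem_range.1 hj, rfl⟩

/-- The certificate, read in the field. -/
theorem six_sols (hS : Std q σ) [CharP F q] {h : ℕ} (hq : q = 2 * h + 1) (h2 : (2 : F) ≠ 0)
    (he : 2 ^ h % q = q - 1) {T : List (ℕ × ℕ)} (hT : tblOk q T = true)
    {S : List (List ℕ × List (List ℕ))} (hS1 : S.all (entryOk q T) = true)
    (hS2 : (sortedLists q 6 1).filter (fun A => decide (A.sum % q = 1)) = S.map Prod.fst)
    {ι : Type} [Fintype ι] [DecidableEq ι] (hn : Fintype.card ι = 6) {A : ι → F}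
    (hA0 : ∀ i, A i ≠ 0) (hAσ : ∀ i, σ (A i) = A i) (hA1 : ∑ i, A i = 1) :
    ∃ t : Fin 6 → ι → Fˣ, (∀ s i, Cir σ (t s i : F)) ∧ (∀ s, ∏ i, t s i = 1) ∧
      (∀ s, ∑ i, (t s i : F) * A i = 0) ∧
      ∀ s s', s ≠ s' → ∃ i j, (t s i : F) * t s' j ≠ t s j * t s' i := by
  classical
  simp only [tblOk, Bool.and_eq_true, decide_eq_true_eq, List.all_eq_true, List.mem_range] at hT
  obtain ⟨⟨⟨⟨hlen, hT0⟩, hTs⟩, hT1⟩, hTlt⟩ := hT
  obtain ⟨w, hw, hσw⟩ := exists_root_two hS hq h2 he
  let ev : ℕ × ℕ → F := fun x => (x.1 : F) + (x.2 : F) * w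
  set z := ev (cAt T 1) with hz
  have hzc : Cir σ z := by
    show z * σ z = 1
    have h0 : (((cAt T 1).1 * (cAt T 1).1 : ℕ) : F) = ((1 + 2 * ((cAt T 1).2 * (cAt T 1).2) : ℕ) : F) :=
      (CharP.cast_eq_iff_mod_eq F q).2 hT1
    push_cast at h0
    simp only [hz, ev, map_add, map_mul, map_natCast, hσw]
    linear_combination h0 - ((cAt T 1).2 : F) ^ 2 * hw
  have hcastmod : ∀ m : ℕ, ((m % q : ℕ) : F) = (m : F) := fun m =>
    (CharP.cast_eq_iff_mod_eq F q).2 (Nat.mod_mod _ _)
  have hstep : ∀ j < T.length, ev (cAt T (j + 1)) = ev (cAt T j) * z := fun j hj => by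
    simp only [hTs j hj, hz, ev, hcastmod]
    push_cast
    linear_combination -(((cAt T j).2 : F) * (cAt T 1).2) * hw
  have hpow0 : ∀ j ≤ T.length, ev (cAt T j) = z ^ j := by
    intro j hj
    induction j with
    | zero => rw [hT0]; simp [ev]
    | succ j ih => rw [hstep j (by omega), ih (by omega), pow_succ]
  have hper : z ^ T.length = 1 := by
    rw [← hpow0 _ le_rfl, show cAt T T.length = cAt T 0 by simp [cAt], hT0]
    simp [ev]
  have hpow : ∀ j, ev (cAt T j) = z ^ j := fun j => by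
    rw [show cAt T j = cAt T (j % T.length) by simp [cAt], hpow0 _ (Nat.mod_lt _ hlen).le]
    conv_rhs => rw [← Nat.mod_add_div j T.length, pow_add, pow_mul, hper, one_pow, mul_one]
  have hlt : ∀ j, (cAt T j).1 < q ∧ (cAt T j).2 < q := fun j => by
    rw [show cAt T j = cAt T (j % T.length) by simp [cAt]]
    exact hTlt _ (Nat.mod_lt _ hlen)
  have hinj : ∀ i j, z ^ i = z ^ j → cAt T i = cAt T j := by
    intro i j hij
    rw [← hpow, ← hpow] at hij
    have hij' := congrArg σ hij
    simp only [ev, map_add, map_mul, map_natCast, hσw] at hij hij'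
    have h1 : ((cAt T i).1 : F) = (cAt T j).1 := mul_left_cancel₀ h2 (by linear_combination hij + hij')
    have hw0 : w ≠ 0 := fun e => h2 (by rw [← hw, e]; simp)
    have h3 : ((cAt T i).2 : F) = (cAt T j).2 := mul_right_cancel₀ hw0 (by linear_combination hij - h1)
    refine Prod.ext ?_ ?_
    · have := (CharP.cast_eq_iff_mod_eq F q).1 h1
      rwa [Nat.mod_eq_of_lt (hlt i).1, Nat.mod_eq_of_lt (hlt j).1] at this
    · have := (CharP.cast_eq_iff_mod_eq F q).1 h3
      rwa [Nat.mod_eq_of_lt (hlt i).2, Nat.mod_eq_of_lt (hlt j).2] at this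
  -- sort the norms
  choose a ha haA using fun i => exists_cast hS (hAσ i)
  let E0 : ι ≃ Fin 6 := Fintype.equivFinOfCardEq hn
  let π := Tuple.sort (a ∘ E0.symm)
  let E : ι ≃ Fin 6 := E0.trans π.symm
  let L : List ℕ := List.ofFn fun s => a (E.symm s)
  have hmon : Monotone fun s => a (E.symm s) := Tuple.monotone_sort (a ∘ E0.symm)
  have ha1 : ∀ i, 1 ≤ a i := fun i => Nat.one_le_iff_ne_zero.2 fun e => hA0 i (by rw [← haA, e, Nat.cast_zero])
  have hLmem : L ∈ sortedLists q 6 1 := by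
    have := mem_sortedLists (p := q) (lo := 1) (L := L)
      (List.pairwise_ofFn.2 fun i j hij => hmon hij.le) (fun x hx => by
        obtain ⟨s, rfl⟩ := List.mem_ofFn.1 hx
        exact ⟨ha1 _, ha _⟩)
    rwa [show L.length = 6 from List.length_ofFn] at this
  have hLsum : L.sum % q = 1 := by
    have h1 : ((L.sum : ℕ) : F) = ((1 : ℕ) : F) := by
      rw [List.sum_ofFn, Nat.cast_sum, Nat.cast_one, Equiv.sum_comp E.symm fun i => ((a i : ℕ) : F)]
      simp_rw [haA]
      exact hA1
    rw [(CharP.cast_eq_iff_mod_eq F q).1 h1, Nat.mod_eq_of_lt (by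
      have := hS.two_le; omega)]
  have hLS : L ∈ S.map Prod.fst := by
    rw [← hS2]
    exact List.mem_filter.2 ⟨hLmem, by simpa using hLsum⟩
  obtain ⟨x, hxS, hxL⟩ := List.mem_map.1 hLS
  have hx := List.all_eq_true.1 hS1 x hxS
  simp only [entryOk, Bool.and_eq_true, List.all_eq_true, List.mem_range] at hx
  have hget : ∀ s : Fin 6, x.1.getD s 0 = a (E.symm s) := fun s => by
    rw [hxL, List.getD_eq_getElem?_getD, List.getElem?_ofFn, dif_pos s.2]
    rfl
  let e : Fin 6 → Fin 6 → ℕ := fun s i => (x.2.getD s []).getD i 0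
  let ζ : Fˣ := Units.mk0 z hzc.ne_zero
  refine ⟨fun s i => ζ ^ e s (E i), fun s i => ?_, fun s => ?_, fun s => ?_, fun s s' hss => ?_⟩
  · rw [Units.val_pow_eq_pow_val, ← zpow_natCast]; exact hzc.zpow _
  · have h1 := (hx s s.2).1
    simp only [solOk, Bool.and_eq_true, decide_eq_true_eq] at h1
    rw [Equiv.prod_comp E fun i => ζ ^ e s i, Finset.prod_pow_eq_pow_sum]
    refine Units.ext ?_
    obtain ⟨c, hc⟩ := Nat.dvd_of_mod_eq_zero h1.1.1
    rw [Units.val_pow_eq_pow_val, Units.val_one, show ∑ i, e s i = T.length * c from hc, pow_mul]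
    show (z ^ T.length) ^ c = 1
    rw [hper, one_pow]
  · have h1 := (hx s s.2).1
    simp only [solOk, Bool.and_eq_true, decide_eq_true_eq] at h1
    have e1 := (CharP.cast_eq_zero_iff F q _).2 (Nat.dvd_of_mod_eq_zero h1.1.2)
    have e2 := (CharP.cast_eq_zero_iff F q _).2 (Nat.dvd_of_mod_eq_zero h1.2)
    push_cast at e1 e2
    rw [← Equiv.sum_comp E.symm]
    have e3 : ∀ i : Fin 6, ((ζ ^ e s (E (E.symm i)) : Fˣ) : F) * A (E.symm i) =
        (x.1.getD i 0 : F) * (cAt T (e s i)).1 + (x.1.getD i 0 : F) * (cAt T (e s i)).2 * w := fun i => by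
      rw [E.apply_symm_apply, Units.val_pow_eq_pow_val, Units.val_mk0, ← hpow, hget, haA]
      simp only [ev]
      ring
    rw [Finset.sum_congr rfl fun i _ => e3 i, Finset.sum_add_distrib, ← Finset.sum_mul, e1, e2, zero_mul,
      add_zero]
  · wlog hlt' : (s' : ℕ) < s generalizing s s'
    · obtain ⟨i, j, hij⟩ := this s' s hss.symm (by
        have := Fin.val_ne_of_ne hss; omega)
      exact ⟨i, j, fun h => hij (by linear_combination -h)⟩
    have h1 := (hx s s.2).2 s' hlt'
    simp only [sepOk, List.any_eq_true, List.mem_range, decide_eq_true_eq] at h1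
    obtain ⟨i, hi, hne⟩ := h1
    refine ⟨E.symm ⟨i, hi⟩, E.symm 0, fun h => hne (hinj _ _ ?_)⟩
    simp [ζ, e] at h
    simp [pow_add]
    linear_combination h

end CfsgLib.SUSix96.Mono
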