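import Mathlib
import Cfsg.Agent.Classical.UnitMono.Solve

/-!
Overgroups of the monomial unitary group in which only monomial elements fix axes: pseudo-reflections and
two-axis torus elements.
-/

set_option autoImplicit false
set_option linter.unusedSectionVars false

namespace CfsgLib.SUSix96.Mono

open Matrix CfsgLib.UnitMono CfsgLib.TransvGL CfsgLib.MonoBasics CfsgLib.UnitCentres CfsgLib.PseudoRefl
  CfsgLib.CircleSums

variable {ι : Type} [Fintype ι] [DecidableEq ι] {F : Type*} [Field F] [Fintype F]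
variable {q : ℕ} {σ : F ≃+* F}

local notation "ax" i:max => (Pi.single i (1 : F) : ι → F)

/-- Only monomial elements fix axes. -/
structure Rigid (q : ℕ) (σ : F ≃+* F) (G : Subgroup (GL ι F)) : Prop where
  std : Std q σ
  iso : ∀ g ∈ G, Iso (sf σ) g
  tor : ∀ t : ι → Fˣ, (∀ i, Cir σ (t i : F)) → ∏ i, t i = 1 → dg t ∈ G
  perm : ∀ (π : Equiv.Perm ι) (r : ι), ∃ h ∈ G, ∃ s : Fˣ, Cir σ (s : F) ∧ ∀ j,
    (h : Matrix ι ι F) *ᵥ ax j = (if j = r then (s : F) else 1) • ax (π j)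
  hU : ∀ h ∈ G, ∀ a : ι, (h : Matrix ι ι F) *ᵥ ax a ∈ Submodule.span F {ax a} → IsMono h

omit [Fintype F] in
/-- A column of a monomial matrix has one non-zero entry. -/
theorem mono_col {h : GL ι F} (hh : IsMono h) {j m i : ι} (hm : ((h : Matrix ι ι F) *ᵥ ax j) m ≠ 0)
    (hi : i ≠ m) : ((h : Matrix ι ι F) *ᵥ ax j) i = 0 := by
  obtain ⟨p, hp⟩ := hh j
  have hp' := mem_axis_iff.1 hp
  by_cases him : m = p
  · exact hp' i (him ▸ hi)
  · exact absurd (hp' m him) hm

omit [Fintype F] in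
/-- A vector off the axes has two non-zero coordinates. -/
theorem exists_two {v : ι → F} (hv : v ≠ 0) (hax : ∀ i, v ∉ Submodule.span F {ax i}) :
    ∃ i m, i ≠ m ∧ v i ≠ 0 ∧ v m ≠ 0 := by
  obtain ⟨i, hi⟩ := Function.ne_iff.1 hv
  by_contra h
  push Not at h
  exact hax i (mem_axis_iff.2 fun m hm => h i m (Ne.symm hm) hi)

/-- A monomial pseudo-reflection. -/
theorem refl_mono (hS : Std q σ) {v : ι → F} (hv : sf σ v v = 1) {δ : Fˣ} (hδ1 : (δ : F) ≠ 1)
    (hy : IsMono (uRefl hS hv δ)) {i m : ι} (him : i ≠ m) (hi : v i ≠ 0) (hm : v m ≠ 0) :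
    1 + ((δ : F) - 1) * (v i * σ (v i)) = 0 ∧ ∀ p, p ≠ i → p ≠ m → v p = 0 := by
  have hD : (δ : F) - 1 ≠ 0 := sub_ne_zero.2 hδ1
  have hσi : σ (v i) ≠ 0 := by simpa using hi
  have e : ∀ p, ((uRefl hS hv δ : Matrix ι ι F) *ᵥ ax i) p = (ax i) p + ((δ : F) - 1) * σ (v i) * v p :=
    fun p => by rw [uRefl_mulVec, sf_ax_left, Pi.add_apply, Pi.smul_apply, smul_eq_mul]
  have h0 : ((uRefl hS hv δ : Matrix ι ι F) *ᵥ ax i) m ≠ 0 := by
    rw [e, Pi.single_eq_of_ne (Ne.symm him), zero_add]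
    exact mul_ne_zero (mul_ne_zero hD hσi) hm
  refine ⟨?_, fun p hpi hpm => ?_⟩
  · have h := mono_col hy h0 him
    rw [e, Pi.single_eq_same] at h
    linear_combination h
  · have h := mono_col hy h0 hpm
    rw [e, Pi.single_eq_of_ne hpi, zero_add] at h
    exact (mul_eq_zero.1 h).resolve_left (mul_ne_zero hD hσi)

variable {G : Subgroup (GL ι F)} (hG : Rigid q σ G)
include hG

theorem fix_mono {h : GL ι F} (hh : h ∈ G) {a b : ι}
    (hab : (h : Matrix ι ι F) *ᵥ ax a ∈ Submodule.span F {ax b}) : IsMono h := by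
  obtain ⟨p, hp, s, -, hpj⟩ := hG.perm (Equiv.swap a b) a
  have hpm : IsMono p := fun j => ⟨Equiv.swap a b j, Submodule.mem_span_singleton.2 ⟨_, (hpj j).symm⟩⟩
  have h1 : IsMono (p * h) := by
    refine hG.hU _ (G.mul_mem hp hh) a ?_
    obtain ⟨c, hc⟩ := Submodule.mem_span_singleton.1 hab
    rw [Units.val_mul, ← mulVec_mulVec, ← hc, mulVec_smul, hpj, Equiv.swap_apply_right]
    exact Submodule.smul_mem _ _ (Submodule.smul_mem _ _ (Submodule.mem_span_singleton_self _))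
  have := hpm.inv.mul h1
  rwa [inv_mul_cancel_left] at this

theorem col_norm {g : GL ι F} (hg : g ∈ G) (a : ι) :
    sf σ ((g : Matrix ι ι F) *ᵥ ax a) ((g : Matrix ι ι F) *ᵥ ax a) = 1 := by
  rw [hG.iso g hg, sf_ax_self]

/-- A column of a non-monomial element is off the axes. -/
theorem col_two {g : GL ι F} (hg : g ∈ G) (hgm : ¬ IsMono g) (a : ι) :
    ∃ i m, i ≠ m ∧ ((g : Matrix ι ι F) *ᵥ ax a) i ≠ 0 ∧ ((g : Matrix ι ι F) *ᵥ ax a) m ≠ 0 := by
  refine exists_two (fun h0 => ?_) fun i hi => hgm (fix_mono hG hg hi)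
  have := col_norm hG hg a
  rw [h0, zero_left hG.std.isUnitary] at this
  exact zero_ne_one this

/-- With pseudo-reflections along the axes a zero in a column makes the column almost an axis. -/
theorem col_zero {δ : Fˣ} (hδ1 : (δ : F) ≠ 1)
    (hR : ∀ k, uRefl hG.std (sf_ax_self (σ := σ) k) δ ∈ G) {g : GL ι F} (hg : g ∈ G) (hgm : ¬ IsMono g)
    {a l : ι} (hl : ((g : Matrix ι ι F) *ᵥ ax a) l = 0) :
    ∃ i m, i ≠ m ∧ 1 + ((δ : F) - 1) * (((g : Matrix ι ι F) *ᵥ ax a) i * σ (((g : Matrix ι ι F) *ᵥ ax a) i)) = 0 ∧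
      ((g : Matrix ι ι F) *ᵥ ax a) i ≠ 0 ∧ ((g : Matrix ι ι F) *ᵥ ax a) m ≠ 0 ∧
      ∀ p, p ≠ i → p ≠ m → ((g : Matrix ι ι F) *ᵥ ax a) p = 0 := by
  obtain ⟨i, m, him, hi, hm⟩ := col_two hG hg hgm a
  have e := conj_uRefl hG.std (hG.iso g hg) (sf_ax_self (σ := σ) a) δ
  have hy : g * uRefl hG.std (sf_ax_self (σ := σ) a) δ * g⁻¹ ∈ G :=
    G.mul_mem (G.mul_mem hg (hR a)) (G.inv_mem hg)
  rw [e] at hy
  have hmono := fix_mono hG hy (a := l) (b := l) (by
    rw [uRefl_mulVec, sf_ax_left, hl, map_zero, mul_zero, zero_smul, add_zero]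
    exact Submodule.mem_span_singleton_self _)
  obtain ⟨h1, h2⟩ := refl_mono hG.std _ hδ1 hmono him hi hm
  exact ⟨i, m, him, h1, hi, hm, h2⟩

/-- With a pseudo-reflection of order at least three all entries are non-zero. -/
theorem col_full {δ : Fˣ} (hδc : Cir σ (δ : F)) (hδ2 : (δ : F) ^ 2 ≠ 1)
    (hR : ∀ k, uRefl hG.std (sf_ax_self (σ := σ) k) δ ∈ G) {g : GL ι F} (hg : g ∈ G) (hgm : ¬ IsMono g)
    (a l : ι) : ((g : Matrix ι ι F) *ᵥ ax a) l ≠ 0 := by
  intro hl
  obtain ⟨i, m, -, h1, hi, -, -⟩ :=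
    col_zero hG (fun e => hδ2 (by rw [e, one_pow])) hR hg hgm hl
  have h2 := congrArg σ h1
  simp only [map_add, map_mul, map_one, map_sub, hG.std.invol, hδc.conj_eq, map_zero] at h2
  have h3 : ((δ : F) - (δ : F)⁻¹) * (((g : Matrix ι ι F) *ᵥ ax a) i * σ (((g : Matrix ι ι F) *ᵥ ax a) i)) = 0 := by
    linear_combination h1 - h2
  have h4 := sub_eq_zero.1 ((mul_eq_zero.1 h3).resolve_right (mul_ne_zero hi (by simpa using hi)))
  refine hδ2 ?_
  rw [sq]
  nth_rw 2 [h4]
  exact mul_inv_cancel₀ hδc.ne_zero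

/-- A conjugate of a two-axis torus element is not monomial. -/
theorem tor_conj {ε : Fˣ} (hε : Cir σ (ε : F)) (h4 : (ε : F) ^ 4 ≠ 1) (h3 : (ε : F) ^ 3 ≠ 1)
    {g : GL ι F} (hg : g ∈ G) (hgm : ¬ IsMono g) {k l : ι} (hkl : k ≠ l)
    (hx : IsMono (g⁻¹ * dg (torPair k l ε) * g)) : False := by
  set w := ((g⁻¹ : GL ι F) : Matrix ι ι F) *ᵥ ax k with hw
  set w' := ((g⁻¹ : GL ι F) : Matrix ι ι F) *ᵥ ax l with hw'
  have hrow : ∀ (p j : ι), ((g : Matrix ι ι F) *ᵥ ax j) p
      = σ ((((g⁻¹ : GL ι F) : Matrix ι ι F) *ᵥ ax p) j) := fun p j => by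
    rw [inv_apply_eq (hG.iso g hg), sf_ax_left, hG.std.invol]
  have hcol : ∀ (η : Fˣ) (j p : ι), (((g⁻¹ * dg (torPair k l η) * g : GL ι F) : Matrix ι ι F) *ᵥ ax j) p
      = (ax j) p + ((η : F) - 1) * (σ (w j) * w p) + ((η : F)⁻¹ - 1) * (σ (w' j) * w' p) := by
    intro η j p
    have hd : ∀ y, (dg (torPair k l η) : Matrix ι ι F) *ᵥ y =
        y + (((η : F) - 1) * y k) • ax k + (((η : F)⁻¹ - 1) * y l) • ax l := fun y => funext fun i => by
      rw [dg_mulVec]
      rcases eq_or_ne i k with rfl | hik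
      · simp [torPair, hkl]; ring
      rcases eq_or_ne i l with rfl | hil
      · simp [torPair, Ne.symm hkl]; ring
      · simp [torPair, hik, hil]
    rw [Units.val_mul, Units.val_mul, ← mulVec_mulVec, ← mulVec_mulVec, hd, mulVec_add, mulVec_add,
      inv_mulVec_mulVec, mulVec_smul, mulVec_smul, hrow, hrow, Pi.add_apply, Pi.add_apply, Pi.smul_apply,
      Pi.smul_apply, smul_eq_mul, smul_eq_mul]
    ring
  have hinv : (g⁻¹ * dg (torPair k l ε) * g)⁻¹ = g⁻¹ * dg (torPair k l ε⁻¹) * g := by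
    rw [_root_.mul_inv_rev, _root_.mul_inv_rev, inv_inv, mul_assoc]
    congr 2
    refine inv_eq_of_mul_eq_one_right (ext_mulVec fun y => funext fun i => ?_)
    rw [Units.val_mul, ← mulVec_mulVec, dg_mulVec, dg_mulVec, Units.val_one, one_mulVec]
    unfold torPair
    split_ifs <;> simp [ε.ne_zero]
  have hsq : ∀ η : Fˣ, g⁻¹ * dg (torPair k l η) * g * (g⁻¹ * dg (torPair k l η) * g) =
      g⁻¹ * dg (torPair k l (η * η)) * g := fun η => by
    rw [show g⁻¹ * dg (torPair k l η) * g * (g⁻¹ * dg (torPair k l η) * g) =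
      g⁻¹ * (dg (torPair k l η) * dg (torPair k l η)) * g by group]
    congr 2
    refine ext_mulVec fun y => funext fun i => ?_
    rw [Units.val_mul, ← mulVec_mulVec, dg_mulVec, dg_mulVec, dg_mulVec]
    unfold torPair
    split_ifs <;> simp <;> ring
  have e0 := ε.ne_zero
  have h2 : (ε : F) ^ 2 ≠ 1 := fun e => h4 (by rw [show (ε : F) ^ 4 = ((ε : F) ^ 2) ^ 2 by ring, e, one_pow])
  have hne1 : (ε : F) ≠ 1 := fun e => h2 (by rw [e, one_pow])
  -- two independent relations kill the off-diagonal part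
  have kill : ∀ {x1 y1 x2 y2 A B : F}, x1 * A + y1 * B = 0 → x2 * A + y2 * B = 0 →
      x1 * y2 - x2 * y1 ≠ 0 → A = 0 ∧ B = 0 := by
    intro x1 y1 x2 y2 A B e1 e2 hd
    constructor
    · exact (mul_eq_zero.1 (show (x1 * y2 - x2 * y1) * A = 0 by linear_combination y2 * e1 - y1 * e2)).resolve_left hd
    · exact (mul_eq_zero.1 (show (x1 * y2 - x2 * y1) * B = 0 by linear_combination x1 * e2 - x2 * e1)).resolve_left hd
  have hX1 := hx
  have hY1 : IsMono (g⁻¹ * dg (torPair k l ε⁻¹) * g) := hinv ▸ hx.inv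
  have hX2 : IsMono (g⁻¹ * dg (torPair k l (ε * ε)) * g) := hsq ε ▸ hx.mul hx
  have hY2 : IsMono (g⁻¹ * dg (torPair k l (ε⁻¹ * ε⁻¹)) * g) := hsq ε⁻¹ ▸ hY1.mul hY1
  have hoff : ∀ j m, m ≠ j → σ (w j) * w m = 0 ∧ σ (w' j) * w' m = 0 := by
    intro j m hmj
    set A := σ (w j) * w m with hA
    set B := σ (w' j) * w' m with hB
    have eX : ∀ η : Fˣ, (((g⁻¹ * dg (torPair k l η) * g : GL ι F) : Matrix ι ι F) *ᵥ ax j) m
        = ((η : F) - 1) * A + ((η : F)⁻¹ - 1) * B := fun η => by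
      rw [hcol, Pi.single_eq_of_ne hmj, zero_add]
    -- if an element moves the axis `j` to `m`, it does not fix the coordinate `m`
    have hsecond : ∀ η : Fˣ, Cir σ (η : F) → IsMono (g⁻¹ * dg (torPair k l η) * g) →
        IsMono (g⁻¹ * dg (torPair k l η⁻¹) * g) →
        ((η : F) - 1) * A + ((η : F)⁻¹ - 1) * B ≠ 0 →
        (((η * η : Fˣ) : F) - 1) * A + (((η * η : Fˣ) : F)⁻¹ - 1) * B = 0 := by
      intro η hη h1 h1' hne
      rw [← eX] at hne
      obtain ⟨p, hp⟩ := h1 j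
      obtain ⟨c, hc⟩ := Submodule.mem_span_singleton.1 hp
      have hpm : p = m := by
        by_contra hpm
        rw [← hc, Pi.smul_apply, Pi.single_eq_of_ne (Ne.symm hpm), smul_zero] at hne
        exact hne rfl
      subst hpm
      have hmm : (((g⁻¹ * dg (torPair k l η) * g : GL ι F) : Matrix ι ι F) *ᵥ ax p) p = 0 := by
        by_contra hne2
        have hc1 : (((g⁻¹ * dg (torPair k l η⁻¹) * g : GL ι F) : Matrix ι ι F) *ᵥ ax p) p ≠ 0 := by
          intro h0
          refine hne2 ((map_eq_zero σ).1 ?_)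
          rw [← h0, hcol, hcol]
          simp only [Pi.single_eq_same, map_add, map_mul, map_sub, map_one, map_inv₀, hG.std.invol,
            hη.conj_eq, Units.val_inv_eq_inv_val, inv_inv]
          ring
        refine hne ((map_eq_zero σ).1 ?_)
        rw [← mono_col h1' hc1 (Ne.symm hmj), hcol, hcol]
        simp only [Pi.single_eq_of_ne hmj, Pi.single_eq_of_ne (Ne.symm hmj), zero_add, map_add, map_mul, map_sub, map_one, map_inv₀,
          hG.std.invol, hη.conj_eq, Units.val_inv_eq_inv_val, inv_inv]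
        ring
      have h5 : (((g⁻¹ * dg (torPair k l η) * g * (g⁻¹ * dg (torPair k l η) * g) : GL ι F) :
          Matrix ι ι F) *ᵥ ax j) p = 0 := by
        rw [Units.val_mul (g⁻¹ * dg (torPair k l η) * g), ← mulVec_mulVec, ← hc, mulVec_smul, Pi.smul_apply,
          hmm, smul_zero]
      rw [hsq, eX] at h5
      exact h5
    have hεi : Cir σ ((ε⁻¹ : Fˣ) : F) := by rw [Units.val_inv_eq_inv_val]; exact hε.inv
    by_cases h1 : ((ε : F) - 1) * A + ((ε : F)⁻¹ - 1) * B = 0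
    · by_cases h1' : ((ε : F)⁻¹ - 1) * A + ((ε : F) - 1) * B = 0
      · refine kill h1 h1' fun e => ?_
        field_simp at e
        have e' : ((ε : F) - 1) ^ 2 * ((ε : F) ^ 2 - 1) = 0 := by linear_combination e
        rcases mul_eq_zero.1 e' with e'' | e''
        · exact hne1 (sub_eq_zero.1 (pow_eq_zero_iff two_ne_zero |>.1 e''))
        · exact h2 (sub_eq_zero.1 e'')
      · have h5 := hsecond ε⁻¹ hεi hY1 (by rwa [inv_inv]) (by
          rw [Units.val_inv_eq_inv_val, inv_inv]; exact h1')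
        simp only [Units.val_mul, Units.val_inv_eq_inv_val, _root_.mul_inv_rev, inv_inv] at h5
        refine kill h1 h5 fun e => ?_
        field_simp at e
        have e' : ((ε : F) - 1) ^ 2 * ((ε : F) + 1) * ((ε : F) ^ 3 - 1) = 0 := by linear_combination e
        rcases mul_eq_zero.1 e' with e'' | e''
        · rcases mul_eq_zero.1 e'' with e3 | e3
          · exact hne1 (sub_eq_zero.1 (pow_eq_zero_iff two_ne_zero |>.1 e3))
          · exact h2 (by rw [eq_neg_of_add_eq_zero_left e3]; ring)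
        · exact h3 (sub_eq_zero.1 e'')
    · by_cases h1' : ((ε : F)⁻¹ - 1) * A + ((ε : F) - 1) * B = 0
      · have h5 := hsecond ε hε hX1 hY1 h1
        simp only [Units.val_mul] at h5
        refine kill h1' h5 fun e => ?_
        field_simp at e
        have e' : ((ε : F) - 1) ^ 2 * ((ε : F) + 1) * ((ε : F) ^ 3 - 1) = 0 := by linear_combination -e
        rcases mul_eq_zero.1 e' with e'' | e''
        · rcases mul_eq_zero.1 e'' with e3 | e3
          · exact hne1 (sub_eq_zero.1 (pow_eq_zero_iff two_ne_zero |>.1 e3))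
          · exact h2 (by rw [eq_neg_of_add_eq_zero_left e3]; ring)
        · exact h3 (sub_eq_zero.1 e'')
      · have h5 := hsecond ε hε hX1 hY1 h1
        have h6 := hsecond ε⁻¹ hεi hY1 (by rwa [inv_inv]) (by
          rw [Units.val_inv_eq_inv_val, inv_inv]; exact h1')
        simp only [Units.val_mul, Units.val_inv_eq_inv_val, _root_.mul_inv_rev, inv_inv] at h5 h6
        refine kill h5 h6 fun e => ?_
        field_simp at e
        have e' : ((ε : F) ^ 2 - 1) ^ 2 * ((ε : F) ^ 4 - 1) = 0 := by linear_combination e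
        rcases mul_eq_zero.1 e' with e'' | e''
        · exact h2 (sub_eq_zero.1 (pow_eq_zero_iff two_ne_zero |>.1 e''))
        · exact h4 (sub_eq_zero.1 e'')
  -- so the image of `k` under the inverse is an axis
  obtain ⟨i, m, him, hi, hm⟩ := col_two hG (G.inv_mem hg) (fun h => hgm (by simpa using h.inv)) k
  exact mul_ne_zero ((map_ne_zero σ).2 hi) hm (hoff i m (Ne.symm him)).1

/-- A column has at most one zero. -/
theorem two_zero {ε : Fˣ} (hε : Cir σ (ε : F)) (h4 : (ε : F) ^ 4 ≠ 1) (h3 : (ε : F) ^ 3 ≠ 1)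
    {g : GL ι F} (hg : g ∈ G) (hgm : ¬ IsMono g) {a k l : ι} (hkl : k ≠ l)
    (hk : ((g : Matrix ι ι F) *ᵥ ax a) k = 0) (hl : ((g : Matrix ι ι F) *ᵥ ax a) l = 0) : False := by
  refine tor_conj hG hε h4 h3 hg hgm hkl (fix_mono hG (a := a) (b := a) ?_ ?_)
  · refine G.mul_mem (G.mul_mem (G.inv_mem hg) (hG.tor _ (fun i => ?_) (prod_torPair hkl ε))) hg
    unfold torPair
    split_ifs
    · exact hε
    · rw [Units.val_inv_eq_inv_val]; exact hε.inv
    · exact cir_one σ
  · have e : (dg (torPair k l ε) : Matrix ι ι F) *ᵥ ((g : Matrix ι ι F) *ᵥ ax a) = (g : Matrix ι ι F) *ᵥ ax a :=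
      funext fun i => by
        rw [dg_mulVec]
        rcases eq_or_ne i k with rfl | hik
        · rw [hk, mul_zero]
        rcases eq_or_ne i l with rfl | hil
        · rw [hl, mul_zero]
        · simp [torPair, hik, hil]
    rw [Units.val_mul, Units.val_mul, ← mulVec_mulVec, ← mulVec_mulVec, e, inv_mulVec_mulVec]
    exact Submodule.mem_span_singleton_self _

end CfsgLib.SUSix96.Mono
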