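import Mathlib
import Cfsg.Agent.SUSix96.Mono.Big
import Cfsg.Agent.SUSix96.Mono.Cert

/-!
Rigid groups of degree six over small fields are monomial.
-/

set_option autoImplicit false
set_option linter.unusedSectionVars false

namespace CfsgLib.SUSix96.Mono

open Matrix CfsgLib.UnitMono CfsgLib.UnitMono91 CfsgLib.TransvGL CfsgLib.MonoBasics CfsgLib.UnitCentres
  CfsgLib.PseudoRefl CfsgLib.CircleSums

variable {ι : Type} [Fintype ι] [DecidableEq ι] {F : Type*} [Field F] [Fintype F]
variable {q : ℕ} {σ : F ≃+* F} {G : Subgroup (GL ι F)}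

local notation "ax" i:max => (Pi.single i (1 : F) : ι → F)

variable (hG : Rigid q σ G) (hn : Fintype.card ι = 6)
include hG hn

omit hn in
theorem two_ne_zero_of (hq : Odd q) : (2 : F) ≠ 0 := fun h2 => by
  obtain ⟨h, hh⟩ := even_q hG.std h2
  obtain ⟨j, hj⟩ := hq
  omega

/-- Over nine elements. -/
theorem three_absurd [CharP F q] (hq : q = 3) (hR : ∀ k, uRefl hG.std (sf_ax_self (σ := σ) k) (-1) ∈ G)
    {g : GL ι F} (hg : g ∈ G) (hgm : ¬ IsMono g) : False := by
  classical
  subst hq
  have hS := hG.std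
  have h2 : (2 : F) ≠ 0 := two_ne_zero_of hG ⟨1, rfl⟩
  have h3 : (3 : F) = 0 := CharP.cast_eq_zero F 3
  have hδ1 : (((-1 : Fˣ)) : F) ≠ 1 := by
    rw [Units.val_neg, Units.val_one]
    exact fun h => h2 (by linear_combination -h)
  -- every column of a non-monomial element has exactly two entries
  have col2 : ∀ g ∈ G, ¬ IsMono g → ∀ a : ι, ∃ i m, i ≠ m ∧ ((g : Matrix ι ι F) *ᵥ ax a) i ≠ 0 ∧
      ((g : Matrix ι ι F) *ᵥ ax a) m ≠ 0 ∧ ∀ p, p ≠ i → p ≠ m → ((g : Matrix ι ι F) *ᵥ ax a) p = 0 := by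
    intro g hg hgm a
    by_cases hz : ∃ l, ((g : Matrix ι ι F) *ᵥ ax a) l = 0
    · obtain ⟨l, hl⟩ := hz
      obtain ⟨i, m, him, -, hi, hm, h⟩ := col_zero hG hδ1 hR hg hgm hl
      exact ⟨i, m, him, hi, hm, h⟩
    push Not at hz
    exfalso
    have hv := col_norm hG hg a
    set v := (g : Matrix ι ι F) *ᵥ ax a with hvdef
    have hy : uRefl hS hv (-1) ∈ G := by
      have e := conj_uRefl hS (hG.iso g hg) (sf_ax_self (σ := σ) a) (-1)
      have := G.mul_mem (G.mul_mem hg (hR a)) (G.inv_mem hg)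
      rwa [e] at this
    have hall : ∀ k, v k * σ (v k) = 1 := by
      intro k
      have hfix : σ (v k * σ (v k)) = v k * σ (v k) := by rw [map_mul, hS.invol, mul_comm]
      obtain ⟨j, hj, hjN⟩ := exists_cast hS hfix
      interval_cases j
      · exact absurd hjN.symm (by
          rw [Nat.cast_zero]; exact mul_ne_zero (hz k) ((map_ne_zero σ).2 (hz k)))
      · rw [← hjN, Nat.cast_one]
      exfalso
      have hne : ∀ p, p ≠ k → ((uRefl hS hv (-1) : Matrix ι ι F) *ᵥ ax k) p = -2 * σ (v k) * v p := fun p hp => by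
        rw [uRefl_mulVec, sf_ax_left, Pi.add_apply, Pi.single_eq_of_ne hp, zero_add, Pi.smul_apply,
          smul_eq_mul, Units.val_neg, Units.val_one]
        ring
      have h0 : ((uRefl hS hv (-1) : Matrix ι ι F) *ᵥ ax k) k = 0 := by
        rw [uRefl_mulVec, sf_ax_left, Pi.add_apply, Pi.single_eq_same, Pi.smul_apply, smul_eq_mul,
          Units.val_neg, Units.val_one]
        have h5 : v k * σ (v k) = 2 := by rw [← hjN]; norm_num
        linear_combination -2 * h5 - h3
      by_cases hym : IsMono (uRefl hS hv (-1))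
      · obtain ⟨i, m, him, hik, -, hmk, -⟩ := exists_two_other (by omega) k k
        exact hz k ((refl_mono hS hv hδ1 hym him (hz i) (hz m)).2 k (Ne.symm hik) (Ne.symm hmk))
      · obtain ⟨i, m, -, -, -, -, h⟩ := col_zero hG hδ1 hR hy hym h0
        obtain ⟨p, hp⟩ : ∃ p, p ∉ ({i, m, k} : Finset ι) := by
          have : ({i, m, k} : Finset ι).card < (Finset.univ : Finset ι).card := by
            rw [Finset.card_univ, hn]
            exact Finset.card_le_three.trans_lt (by norm_num)
          obtain ⟨p, -, hp⟩ := Finset.exists_mem_notMem_of_card_lt_card this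
          exact ⟨p, hp⟩
        simp only [Finset.mem_insert, Finset.mem_singleton, not_or] at hp
        have := h p hp.1 hp.2.1
        rw [hne p hp.2.2] at this
        exact mul_ne_zero (mul_ne_zero (neg_ne_zero.2 h2) ((map_ne_zero σ).2 (hz k))) (hz p) this
    have hsum : ∑ k, v k * σ (v k) = 1 := hv
    rw [Finset.sum_congr rfl fun k _ => hall k, Finset.sum_const, Finset.card_univ, hn, nsmul_eq_mul,
      mul_one] at hsum
    exact one_ne_zero (show (1 : F) = 0 by push_cast at hsum; linear_combination 2 * h3 - hsum)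
  -- hence every row has exactly two entries
  have hrow : ∀ p j : ι, ((g : Matrix ι ι F) *ᵥ ax j) p = σ ((((g⁻¹ : GL ι F) : Matrix ι ι F) *ᵥ ax p) j) :=
    fun p j => by rw [inv_apply_eq (hG.iso g hg), sf_ax_left, hS.invol]
  have hginv : ¬ IsMono g⁻¹ := fun h => hgm (by simpa using h.inv)
  have row2 : ∀ p a : ι, ((g : Matrix ι ι F) *ᵥ ax a) p ≠ 0 → ∃ c, ∀ j, j ≠ a → j ≠ c →
      ((g : Matrix ι ι F) *ᵥ ax j) p = 0 := by
    intro p a ha
    obtain ⟨i, m, -, -, -, h⟩ := col2 g⁻¹ (G.inv_mem hg) hginv p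
    rw [hrow, map_ne_zero] at ha
    by_cases hai : a = i
    · exact ⟨m, fun j h1 h2 => by rw [hrow, h j (hai ▸ h1) h2, map_zero]⟩
    · refine ⟨i, fun j h1 h2 => ?_⟩
      have ham : a = m := by
        by_contra ham
        exact ha (h a hai ham)
      rw [hrow, h j h2 (ham ▸ h1), map_zero]
  obtain ⟨a⟩ : Nonempty ι := Fintype.card_pos_iff.1 (by omega)
  obtain ⟨k, l, hkl, hk, hl, hsupp⟩ := col2 g hg hgm a
  obtain ⟨c, hc⟩ := row2 k a hk
  obtain ⟨d, hd⟩ := row2 l a hl
  obtain ⟨b, hb⟩ : ∃ b, b ∉ ({a, c, d} : Finset ι) := by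
    have : ({a, c, d} : Finset ι).card < (Finset.univ : Finset ι).card := by
      rw [Finset.card_univ, hn]
      exact Finset.card_le_three.trans_lt (by norm_num)
    obtain ⟨p, -, hp⟩ := Finset.exists_mem_notMem_of_card_lt_card this
    exact ⟨p, hp⟩
  simp only [Finset.mem_insert, Finset.mem_singleton, not_or] at hb
  obtain ⟨k', l', hkl', hk', hl', -⟩ := col2 g hg hgm b
  have hbk : ((g : Matrix ι ι F) *ᵥ ax b) k = 0 := hc b hb.1 hb.2.1
  have hbl : ((g : Matrix ι ι F) *ᵥ ax b) l = 0 := hd b hb.1 hb.2.2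
  have hak : ∀ p, ((g : Matrix ι ι F) *ᵥ ax b) p ≠ 0 → ((g : Matrix ι ι F) *ᵥ ax a) p = 0 := fun p hp =>
    hsupp p (fun e => hp (e ▸ hbk)) (fun e => hp (e ▸ hbl))
  set π : Equiv.Perm ι := Equiv.swap (Equiv.swap k a l) b * Equiv.swap k a with hπ
  have hka : Equiv.swap k a l ≠ a := fun e => hkl (by
    exact ((Equiv.swap k a).injective (e.trans (Equiv.swap_apply_left k a).symm)).symm)
  have hπk : π k = a := by
    rw [hπ, Equiv.Perm.mul_apply, Equiv.swap_apply_left, Equiv.swap_apply_of_ne_of_ne hka.symm (Ne.symm hb.1)]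
  have hπl : π l = b := by rw [hπ, Equiv.Perm.mul_apply, Equiv.swap_apply_left]
  obtain ⟨p, hp, s, hs, hpj⟩ := hG.perm π k
  set x := (g : Matrix ι ι F) *ᵥ ax a with hxdef
  have hx : x = x k • ax k + x l • ax l := funext fun i => by
    by_cases hik : i = k
    · subst hik; simp [hkl]
    by_cases hil : i = l
    · subst hil; simp [Ne.symm hkl]
    · simp [hik, hil, hsupp i hik hil]
  have hcol : ((g * p * g : GL ι F) : Matrix ι ι F) *ᵥ ax a =
      (x k * (s : F)) • x + x l • ((g : Matrix ι ι F) *ᵥ ax b) := by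
    rw [Units.val_mul, Units.val_mul, ← mulVec_mulVec, ← mulVec_mulVec, ← hxdef]
    nth_rw 1 [hx]
    rw [mulVec_add, mulVec_smul, mulVec_smul, hpj, hpj, if_pos rfl, if_neg (Ne.symm hkl), one_smul, hπk, hπl,
      smul_smul, mulVec_add, mulVec_smul, mulVec_smul, ← hxdef]
  have hh := G.mul_mem (G.mul_mem hg hp) hg
  have n1 : ((g * p * g : GL ι F) : Matrix ι ι F).mulVec (ax a) k ≠ 0 := by
    rw [hcol, Pi.add_apply, Pi.smul_apply, Pi.smul_apply, hbk, smul_zero, add_zero, smul_eq_mul]
    exact mul_ne_zero (mul_ne_zero hk s.ne_zero) hk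
  have n2 : ((g * p * g : GL ι F) : Matrix ι ι F).mulVec (ax a) l ≠ 0 := by
    rw [hcol, Pi.add_apply, Pi.smul_apply, Pi.smul_apply, hbl, smul_zero, add_zero, smul_eq_mul]
    exact mul_ne_zero (mul_ne_zero hk s.ne_zero) hl
  have n3 : ((g * p * g : GL ι F) : Matrix ι ι F).mulVec (ax a) k' ≠ 0 := by
    rw [hcol, Pi.add_apply, Pi.smul_apply, Pi.smul_apply, hak k' hk', smul_zero, zero_add, smul_eq_mul]
    exact mul_ne_zero hl hk'
  by_cases hm : IsMono (g * p * g)
  · exact n2 (mono_col hm n1 (Ne.symm hkl))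
  · obtain ⟨i, m, -, -, -, h⟩ := col2 _ hh hm a
    have hk'k : k' ≠ k := fun e => hk' (e ▸ hbk)
    have hk'l : k' ≠ l := fun e => hk' (e ▸ hbl)
    rcases eq_or_ne k i with rfl | h1
    · rcases eq_or_ne l m with rfl | h2
      · exact n3 (h k' hk'k hk'l)
      · exact n2 (h l (Ne.symm hkl) h2)
    · rcases eq_or_ne k m with rfl | h2
      · rcases eq_or_ne l i with rfl | h4
        · exact n3 (h k' hk'l hk'k)
        · exact n2 (h l h4 (Ne.symm hkl))
      · exact n1 (h k h1 h2)

omit hn in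
theorem cir_gen_ne (h5 : q = 5 ∨ q = 11) :
    ∃ ε : Fˣ, Cir σ (ε : F) ∧ (ε : F) ^ 4 ≠ 1 ∧ (ε : F) ^ 3 ≠ 1 := by
  classical
  have hS := hG.std
  by_contra hno
  push Not at hno
  have hsub : (Finset.univ.filter fun z : F => Cir σ z) ⊆
      (Polynomial.nthRoots (Nat.gcd 4 (q + 1)) (1 : F)).toFinset ∪ (Polynomial.nthRoots 3 (1 : F)).toFinset := by
    intro z hz
    have hzc := (Finset.mem_filter.1 hz).2
    have hg0 : 0 < Nat.gcd 4 (q + 1) := Nat.gcd_pos_of_pos_left _ (by norm_num)
    rw [Finset.mem_union, Multiset.mem_toFinset, Multiset.mem_toFinset, Polynomial.mem_nthRoots hg0,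
      Polynomial.mem_nthRoots (by norm_num)]
    by_cases h4 : z ^ 4 = 1
    · exact Or.inl (pow_gcd_eq_one.2 ⟨h4, (cir_iff hS).1 hzc⟩)
    · right
      by_contra h3
      exact h3 (hno (Units.mk0 z hzc.ne_zero) hzc h4)
  have hc := (Finset.card_le_card hsub).trans (Finset.card_union_le _ _)
  have a1 := (Multiset.toFinset_card_le _).trans (Polynomial.card_nthRoots (Nat.gcd 4 (q + 1)) (1 : F))
  have a2 := (Multiset.toFinset_card_le _).trans (Polynomial.card_nthRoots 3 (1 : F))
  rw [card_cir hS.card hS.frob] at hc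
  rcases h5 with rfl | rfl <;> norm_num at * <;> omega

/-- Six certified tuples contradict the absence of zeros. -/
theorem full_absurd (hfull : ∀ g ∈ G, ¬ IsMono g → ∀ a k, ((g : Matrix ι ι F) *ᵥ ax a) k ≠ 0)
    {g : GL ι F} (hg : g ∈ G) (hgm : ¬ IsMono g)
    (hsol : ∀ A : ι → F, (∀ i, A i ≠ 0) → (∀ i, σ (A i) = A i) → ∑ i, A i = 1 →
      ∃ t : Fin 6 → ι → Fˣ, (∀ s i, Cir σ (t s i : F)) ∧ (∀ s, ∏ i, t s i = 1) ∧
        (∀ s, ∑ i, (t s i : F) * A i = 0) ∧
        ∀ s s', s ≠ s' → ∃ i j, (t s i : F) * t s' j ≠ t s j * t s' i) : False := by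
  classical
  have hS := hG.std
  obtain ⟨k⟩ : Nonempty ι := Fintype.card_pos_iff.1 (by omega)
  set w := ((g⁻¹ : GL ι F) : Matrix ι ι F) *ᵥ ax k with hw
  have hginv : ¬ IsMono g⁻¹ := fun h => hgm (by simpa using h.inv)
  have hw0 : ∀ i, w i ≠ 0 := hfull _ (G.inv_mem hg) hginv k
  obtain ⟨t, htc, htp, hts, hsep⟩ := hsol (fun i => w i * σ (w i))
    (fun i => mul_ne_zero (hw0 i) ((map_ne_zero σ).2 (hw0 i)))
    (fun i => by rw [map_mul, hS.invol, mul_comm]) (col_norm hG (G.inv_mem hg) k)
  have hx : ∀ s, g * dg (t s) * g⁻¹ ∈ G := fun s =>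
    G.mul_mem (G.mul_mem hg (hG.tor _ (htc s) (htp s))) (G.inv_mem hg)
  have hxe : ∀ s, ((g * dg (t s) * g⁻¹ : GL ι F) : Matrix ι ι F) *ᵥ ax k =
      (g : Matrix ι ι F) *ᵥ ((dg (t s) : Matrix ι ι F) *ᵥ w) := fun s => by
    rw [Units.val_mul, Units.val_mul, ← mulVec_mulVec, ← mulVec_mulVec]
  have hzero : ∀ s, (((g * dg (t s) * g⁻¹ : GL ι F) : Matrix ι ι F) *ᵥ ax k) k = 0 := fun s => by
    rw [hxe, ← sf_ax_right (σ := σ) k ((g : Matrix ι ι F) *ᵥ ((dg (t s) : Matrix ι ι F) *ᵥ w)),
      ← mulVec_inv_mulVec g (ax k), hG.iso g hg, ← hw]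
    simp only [sf, dg_mulVec, mul_assoc]
    exact hts s
  have hmono : ∀ s, IsMono (g * dg (t s) * g⁻¹) := fun s =>
    by_contra fun h => hfull _ (hx s) h k k (hzero s)
  choose l hl using fun s => hmono s k
  choose c hc using fun s => Submodule.mem_span_singleton.1 (hl s)
  have hlk : ∀ s, l s ≠ k := fun s e => by
    have := congrFun (hc s) k
    rw [hzero, e, Pi.smul_apply, Pi.single_eq_same, smul_eq_mul, mul_one] at this
    exact mulVec_ne_zero (g * dg (t s) * g⁻¹) (ax_ne_zero (F := F) k) (by rw [← hc s, this, zero_smul])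
  obtain ⟨s, -, s', -, hss, he⟩ := Finset.exists_ne_map_eq_of_card_lt_of_maps_to (s := (Finset.univ : Finset (Fin 6)))
    (t := Finset.univ.erase k) (f := l) (by
      rw [Finset.card_erase_of_mem (Finset.mem_univ k), Finset.card_univ, Finset.card_univ, hn, Fintype.card_fin]
      norm_num) fun s _ => Finset.mem_erase.2 ⟨hlk s, Finset.mem_univ _⟩
  have hc0 : c s ≠ 0 := fun h =>
    mulVec_ne_zero (g * dg (t s) * g⁻¹) (ax_ne_zero (F := F) k) (by rw [← hc s, h, zero_smul])
  have heq : ∀ i, c s' * ((t s i : F) * w i) = c s * ((t s' i : F) * w i) := fun i => by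
    have h1 : (g : Matrix ι ι F) *ᵥ (c s' • ((dg (t s) : Matrix ι ι F) *ᵥ w)) =
        (g : Matrix ι ι F) *ᵥ (c s • ((dg (t s') : Matrix ι ι F) *ᵥ w)) := by
      rw [mulVec_smul, mulVec_smul, ← hxe, ← hxe, ← hc s, ← hc s', he, smul_smul, smul_smul, mul_comm]
    have h2 := congrArg (fun y => (((g⁻¹ : GL ι F) : Matrix ι ι F) *ᵥ y) i) h1
    simpa [inv_mulVec_mulVec, dg_mulVec] using h2
  obtain ⟨i, j, hij⟩ := hsep s s' hss
  refine hij (mul_left_cancel₀ hc0 (mul_right_cancel₀ (mul_ne_zero (hw0 i) (hw0 j)) ?_))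
  linear_combination ((t s j : F) * w j) * heq i - ((t s i : F) * w i) * heq j

/-- Over a field with twenty-five or a hundred and twenty-one elements. -/
theorem five_absurd [CharP F q] (h5 : q = 5 ∨ q = 11)
    (hM : ∀ h : GL ι F, Iso (sf σ) h → h ∈ Cfsg.Geo.specialLinear ι F → IsMono h → h ∈ G)
    (hR : q = 11 → ∀ k, uRefl hG.std (sf_ax_self (σ := σ) k) (-1) ∈ G)
    {g₀ : GL ι F} (hg₀ : g₀ ∈ G) (hgm₀ : ¬ IsMono g₀) : False := by
  classical
  have hS := hG.std
  have hodd : Odd q := by rcases h5 with rfl | rfl <;> decide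
  have h2 : (2 : F) ≠ 0 := two_ne_zero_of hG hodd
  obtain ⟨ε, hε, h4, h3⟩ := cir_gen_ne hG h5
  have hfull : ∀ g ∈ G, ¬ IsMono g → ∀ a k, ((g : Matrix ι ι F) *ᵥ ax a) k ≠ 0 := by
    intro g hg hgm a k hk
    have h1 : ∀ p, p ≠ k → ((g : Matrix ι ι F) *ᵥ ax a) p ≠ 0 := fun p hp h =>
      two_zero hG hε h4 h3 hg hgm hp h hk
    rcases h5 with rfl | rfl
    swap
    · obtain ⟨i, m, -, -, -, -, h⟩ := col_zero hG (δ := -1) (by
        rw [Units.val_neg, Units.val_one]; exact fun h => h2 (by linear_combination -h)) (hR rfl) hg hgm hk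
      obtain ⟨p, hp⟩ : ∃ p, p ∉ ({i, m, k} : Finset ι) := by
        have : ({i, m, k} : Finset ι).card < (Finset.univ : Finset ι).card := by
          rw [Finset.card_univ, hn]
          exact Finset.card_le_three.trans_lt (by norm_num)
        obtain ⟨p, -, hp⟩ := Finset.exists_mem_notMem_of_card_lt_card this
        exact ⟨p, hp⟩
      simp only [Finset.mem_insert, Finset.mem_singleton, not_or] at hp
      exact h1 p hp.2.2 (h p hp.1 hp.2.1)
    -- two of the five non-zero norms agree
    set v := (g : Matrix ι ι F) *ᵥ ax a with hv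
    choose j hj hjN using fun i => exists_cast hS (show σ (v i * σ (v i)) = v i * σ (v i) by
      rw [map_mul, hS.invol, mul_comm])
    obtain ⟨l, hlk, m, hmk, hlm, hN⟩ := Finset.exists_ne_map_eq_of_card_lt_of_maps_to
      (s := Finset.univ.erase k) (t := (Finset.range 5).erase 0) (f := j) (by
        rw [Finset.card_erase_of_mem (Finset.mem_univ k), Finset.card_univ, hn,
          Finset.card_erase_of_mem (Finset.mem_range.2 (by norm_num)), Finset.card_range]
        norm_num) fun i hi => Finset.mem_erase.2 ⟨fun e => by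
          have := hjN i
          rw [e, Nat.cast_zero] at this
          exact mul_ne_zero (h1 i (Finset.mem_erase.1 hi).1) ((map_ne_zero σ).2 (h1 i (Finset.mem_erase.1 hi).1))
            this.symm, Finset.mem_range.2 (hj i)⟩
    replace hlk := (Finset.mem_erase.1 hlk).1
    replace hmk := (Finset.mem_erase.1 hmk).1
    have hN' : v l * σ (v l) = v m * σ (v m) := by rw [← hjN l, ← hjN m, hN]
    have hvl : v l ≠ 0 := h1 l hlk
    have hvm : v m ≠ 0 := h1 m hmk
    set s : Fˣ := Units.mk0 (v m / v l) (div_ne_zero hvm hvl) with hs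
    have hsc : Cir σ (s : F) := by
      show v m / v l * σ (v m / v l) = 1
      rw [map_div₀, div_mul_div_comm, ← hN', div_self (mul_ne_zero hvl ((map_ne_zero σ).2 hvl))]
    set S0 := monoGL (Equiv.swap l m) (fun i => if i = l then s else if i = m then s⁻¹ else 1) with hS0
    set Rk := uRefl hS (sf_ax_self (σ := σ) k) (-1) with hRk
    set h := S0 * Rk with hh
    have hci : ∀ i, Cir σ (((fun i => if i = l then s else if i = m then s⁻¹ else 1) i : Fˣ) : F) := by
      intro i
      simp only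
      split_ifs
      · exact hsc
      · rw [Units.val_inv_eq_inv_val]; exact hsc.inv
      · exact cir_one σ
    have hs0 := s.ne_zero
    have hS0v : ∀ y, (S0 : Matrix ι ι F) *ᵥ y =
        y + ((s : F)⁻¹ * y m - y l) • ax l + ((s : F) * y l - y m) • ax m := fun y => funext fun i => by
      rw [hS0, monoGL_mulVec]
      rcases eq_or_ne i l with rfl | hil
      · simp [hlm, Ne.symm hlm]
      rcases eq_or_ne i m with rfl | him
      · simp [hil, Ne.symm hil]
      · simp [hil, him, Equiv.swap_apply_of_ne_of_ne hil him]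
    have hdet0 : (S0 : Matrix ι ι F).det = -1 := by
      set χ : Module.Dual F (ι → F) :=
        (2 : F)⁻¹ • (LinearMap.proj l - (s : F)⁻¹ • LinearMap.proj m) with hχ
      have hχy : χ (ax l - (s : F) • ax m) = 1 := by
        simp [hχ, hlm, Ne.symm hlm]
        field_simp
        ring
      have : S0 = refl χ hχy (-1) := ext_mulVec fun y => by
        rw [hS0v, refl_mulVec]
        simp [hχ]
        match_scalars <;> field_simp <;> ring
      rw [this, det_refl, Units.val_neg, Units.val_one]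
    have hneg : Cir σ (((-1 : Fˣ)) : F) := by rw [Units.val_neg, Units.val_one]; exact cir_neg_one σ
    have hhG : h ∈ G := by
      refine hM _ ((iso_monoGL _ _ hci).mul (uRefl_iso _ _ hneg)) ?_
        ((isMono_monoGL _ _).mul (by rw [hRk, uRefl_ax_eq_dg]; exact isMono_dg _))
      rw [PseudoRefl.mem_specialLinear_iff, hh, Units.val_mul, det_mul, hdet0, hRk, det_uRefl]
      simp
    have hhy : ∀ y, (h : Matrix ι ι F) *ᵥ y =
        y + ((s : F)⁻¹ * y m - y l) • ax l + ((s : F) * y l - y m) • ax m + (-2 * y k) • ax k := fun y => by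
      have eR : (Rk : Matrix ι ι F) *ᵥ y = y + (-2 * y k) • ax k := by
        rw [hRk, uRefl_mulVec, sf_ax_right, Units.val_neg, Units.val_one]
        congr 2; ring
      rw [hh, Units.val_mul, ← mulVec_mulVec, eR, hS0v]
      simp only [Pi.add_apply, Pi.smul_apply, Pi.single_eq_of_ne hlk, Pi.single_eq_of_ne hmk, smul_eq_mul,
        mul_zero, add_zero]
      abel
    have hhe : ∀ y, (h : Matrix ι ι F) *ᵥ y - y =
        ((s : F)⁻¹ * y m - y l) • (ax l - (s : F) • ax m) + (-2 * y k) • ax k := fun y => by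
      rw [hhy]
      match_scalars <;> field_simp <;> ring
    have hfix : (h : Matrix ι ι F) *ᵥ v = v := by
      have := hhe v
      rw [hk, mul_zero, zero_smul, add_zero,
        show (s : F)⁻¹ * v m - v l = 0 by rw [hs, Units.val_mk0]; field_simp; ring,
        zero_smul, sub_eq_zero] at this
      exact this
    set y := g⁻¹ * h * g with hy
    have hyG : y ∈ G := G.mul_mem (G.mul_mem (G.inv_mem hg) hhG) hg
    have hym : IsMono y := by
      refine hG.hU _ hyG a ?_
      rw [hy, Units.val_mul, Units.val_mul, ← mulVec_mulVec, ← mulVec_mulVec, ← hv, hfix, hv, inv_mulVec_mulVec]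
      exact Submodule.mem_span_singleton_self _
    set w := ((g⁻¹ : GL ι F) : Matrix ι ι F) *ᵥ ax k with hw
    set e' := ((g⁻¹ : GL ι F) : Matrix ι ι F) *ᵥ (ax l - (s : F) • ax m)
    have hyd : ∀ z, (y : Matrix ι ι F) *ᵥ z - z ∈ Submodule.span F ({w, e'} : Set (ι → F)) := fun z => by
      have : (y : Matrix ι ι F) *ᵥ z - z = ((g⁻¹ : GL ι F) : Matrix ι ι F) *ᵥ
          ((h : Matrix ι ι F) *ᵥ ((g : Matrix ι ι F) *ᵥ z) - (g : Matrix ι ι F) *ᵥ z) := by
        rw [hy, Units.val_mul, Units.val_mul, ← mulVec_mulVec, ← mulVec_mulVec, mulVec_sub, inv_mulVec_mulVec]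
      rw [this, hhe, mulVec_add, mulVec_smul, mulVec_smul]
      exact Submodule.add_mem _ (Submodule.smul_mem _ _ (Submodule.subset_span (Or.inr rfl)))
        (Submodule.smul_mem _ _ (Submodule.subset_span (Or.inl rfl)))
    have hyw : (y : Matrix ι ι F) *ᵥ w = -w := by
      rw [hy, Units.val_mul, Units.val_mul, ← mulVec_mulVec, ← mulVec_mulVec, hw, mulVec_inv_mulVec, hhy]
      rw [Pi.single_eq_of_ne hlk, Pi.single_eq_of_ne hmk, Pi.single_eq_same, mul_zero, mul_zero, sub_zero,
        zero_smul, zero_smul, add_zero, add_zero, mul_one, mulVec_add, mulVec_smul]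
      match_scalars
      ring
    have hy2 : ∀ z, (y : Matrix ι ι F) *ᵥ ((y : Matrix ι ι F) *ᵥ z) = z := by
      have hh2 : ∀ z, (h : Matrix ι ι F) *ᵥ ((h : Matrix ι ι F) *ᵥ z) = z := fun z => by
        rw [hhy, hhy z]
        simp only [Pi.add_apply, Pi.smul_apply, Pi.single_eq_same, Pi.single_eq_of_ne hlk,
          Pi.single_eq_of_ne hmk, Pi.single_eq_of_ne (Ne.symm hlk), Pi.single_eq_of_ne (Ne.symm hmk),
          Pi.single_eq_of_ne hlm, Pi.single_eq_of_ne (Ne.symm hlm), smul_eq_mul, mul_zero, mul_one, add_zero]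
        match_scalars <;> field_simp <;> ring
      intro z
      rw [hy, Units.val_mul, Units.val_mul, ← mulVec_mulVec, ← mulVec_mulVec, ← mulVec_mulVec, ← mulVec_mulVec,
        mulVec_inv_mulVec, hh2, inv_mulVec_mulVec]
    choose π hπ using hym
    choose c hc using fun i => Submodule.mem_span_singleton.1 (hπ i)
    have hc0 : ∀ i, c i ≠ 0 := fun i h0 => mulVec_ne_zero y (ax_ne_zero (F := F) i) (by rw [← hc i, h0, zero_smul])
    have hinv : ∀ i, π (π i) = i := fun i => by
      have := congrFun (hy2 (ax i)) i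
      rw [← hc i, mulVec_smul, ← hc (π i), smul_smul, Pi.smul_apply, Pi.single_eq_same, smul_eq_mul] at this
      by_contra hne
      rw [Pi.single_eq_of_ne (Ne.symm hne), mul_zero] at this
      exact zero_ne_one this
    set u : ι → ι → F := fun i => (y : Matrix ι ι F) *ᵥ ax i - ax i with hu
    have hzero : ∀ i p, p ≠ i → p ≠ π i → u i p = 0 := fun i p hp hp' => by
      show ((y : Matrix ι ι F) *ᵥ ax i - ax i) p = 0
      rw [← hc i]
      simp [hp, hp']
    have hne : ∀ i, w i ≠ 0 → u i i ≠ 0 := by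
      intro i hwi h0
      rcases eq_or_ne (π i) i with hi | hi
      · have hci : c i = 1 := by
          rw [hu] at h0
          simpa [← hc i, hi, sub_eq_zero] using h0
        have hyi : ((y : Matrix ι ι F) *ᵥ w) i = w i := by
          rw [← Finset.univ_sum_single w, mulVec_sum, Finset.sum_apply, Finset.sum_eq_single i]
          · rw [show Pi.single i (w i) = w i • ax i by simp [← Pi.single_smul'], mulVec_smul, ← hc i, hi, hci]
            simp
          · intro b _ hb
            rw [show Pi.single b (w b) = w b • ax b by simp [← Pi.single_smul'], mulVec_smul, ← hc b]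
            have : i ≠ π b := fun e => hb (by rw [← hinv b, ← e, hi])
            simp [this]
          · exact fun h => absurd (Finset.mem_univ i) h
        rw [hyw, Pi.neg_apply] at hyi
        exact mul_ne_zero h2 hwi (by linear_combination -hyi)
      · rw [hu] at h0
        simp [← hc i, Ne.symm hi] at h0
    set C := Finset.univ.filter fun i => w i = 0 with hC
    have hC1 : C.card ≤ 1 := Finset.card_le_one.2 fun p hp p' hp' => by
      by_contra hpp
      exact two_zero hG hε h4 h3 (G.inv_mem hg) (fun e => hgm (by simpa using e.inv)) hpp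
        (Finset.mem_filter.1 hp).2 (Finset.mem_filter.1 hp').2
    have pick : ∀ T : Finset ι, T.card ≤ 4 → ∃ i ∉ T, w i ≠ 0 := fun T hT => by
      obtain ⟨i, -, hi⟩ := Finset.exists_mem_notMem_of_card_lt_card (s := T ∪ C) (t := (Finset.univ : Finset ι)) (by
        rw [Finset.card_univ, hn]
        have := Finset.card_union_le T C
        omega)
      rw [Finset.mem_union, not_or, hC, Finset.mem_filter] at hi
      exact ⟨i, hi.1, fun e => hi.2 ⟨Finset.mem_univ _, e⟩⟩
    obtain ⟨i1, -, hi1⟩ := pick ∅ (by simp)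
    obtain ⟨i2, hi2', hi2⟩ := pick {i1, π i1} (Finset.card_le_two.trans (by norm_num))
    obtain ⟨i3, hi3', hi3⟩ := pick {i1, π i1, i2, π i2} Finset.card_le_four
    simp only [Finset.mem_insert, Finset.mem_singleton, not_or] at hi2' hi3'
    have sw : ∀ {b c : ι}, b ≠ π c → c ≠ π b := fun {b c} h e => h (by rw [e, hinv])
    have hli : LinearIndependent F ![u i1, u i2, u i3] := by
      rw [Fintype.linearIndependent_iff]
      intro f hf
      simp only [Fin.sum_univ_three, Matrix.cons_val_zero, Matrix.cons_val_one, Matrix.cons_val_two,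
        Matrix.head_cons, Matrix.tail_cons] at hf
      have e1 := congrFun hf i1
      have e2 := congrFun hf i2
      have e3 := congrFun hf i3
      simp only [Pi.add_apply, Pi.smul_apply, Pi.zero_apply, smul_eq_mul,
        hzero i2 i1 (Ne.symm hi2'.1) (sw hi2'.2), hzero i3 i1 (Ne.symm hi3'.1) (sw hi3'.2.1),
        hzero i1 i2 hi2'.1 hi2'.2, hzero i3 i2 (Ne.symm hi3'.2.2.1) (sw hi3'.2.2.2),
        hzero i1 i3 hi3'.1 hi3'.2.1, hzero i2 i3 hi3'.2.2.1 hi3'.2.2.2, mul_zero, add_zero,
        zero_add] at e1 e2 e3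
      intro i
      fin_cases i
      · exact (mul_eq_zero.1 e1).resolve_right (hne i1 hi1)
      · exact (mul_eq_zero.1 e2).resolve_right (hne i2 hi2)
      · exact (mul_eq_zero.1 e3).resolve_right (hne i3 hi3)
    have r1 := finrank_span_eq_card hli
    have r2 : Submodule.span F (Set.range ![u i1, u i2, u i3]) ≤ Submodule.span F ({w, e'} : Set (ι → F)) := by
      rw [Submodule.span_le]
      rintro _ ⟨i, rfl⟩
      fin_cases i <;> exact hyd _
    have r3 := Submodule.finrank_mono r2
    have r4 : Module.finrank F (Submodule.span F ({w, e'} : Set (ι → F))) ≤ 2 := by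
      rw [show ({w, e'} : Set (ι → F)) = ↑({w, e'} : Finset (ι → F)) by simp]
      exact (finrank_span_finset_le_card _).trans Finset.card_le_two
    rw [r1, Fintype.card_fin] at r3
    omega
  refine full_absurd hG hn hfull hg₀ hgm₀ fun A hA0 hAσ hA1 => ?_
  rcases h5 with rfl | rfl
  · exact six_sols hS (h := 2) rfl h2 rfl tbl5 entries5 cover5 hn hA0 hAσ hA1
  · exact six_sols hS (h := 5) rfl h2 rfl tbl11 entries11 cover11 hn hA0 hAσ hA1

/-- A rigid group of degree six with enough monomial elements is monomial. -/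
theorem rigid_absurd (hq3 : 3 ≤ q)
    (hM : ∀ h : GL ι F, Iso (sf σ) h → h ∈ Cfsg.Geo.specialLinear ι F → IsMono h → h ∈ G)
    (hR : ∀ ε : Fˣ, Cir σ (ε : F) → ∀ k, uRefl hG.std (sf_ax_self (σ := σ) k) (ε ^ 6) ∈ G)
    {g : GL ι F} (hg : g ∈ G) (hgm : ¬ IsMono g) : False := by
  classical
  have hS := hG.std
  by_cases hall : ∀ z : F, Cir σ z → z ^ 12 = 1
  swap
  · push Not at hall
    obtain ⟨z, hz, hz12⟩ := hall
    refine big_absurd hG (by omega) (δ := (Units.mk0 z hz.ne_zero) ^ 6) ?_ ?_ (hR (Units.mk0 z hz.ne_zero) hz) hg hgm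
    · rw [Units.val_pow_eq_pow_val, ← zpow_natCast]; exact hz.zpow _
    · rw [Units.val_pow_eq_pow_val, ← pow_mul]; exact hz12
  have hq : q + 1 ≤ Nat.gcd 12 (q + 1) := by
    refine (card_cir hS.card hS.frob).symm.le.trans ?_
    refine (Finset.card_le_card (t := (Polynomial.nthRoots (Nat.gcd 12 (q + 1)) (1 : F)).toFinset)
      fun z hz => ?_).trans ((Multiset.toFinset_card_le _).trans (Polynomial.card_nthRoots _ _))
    rw [Multiset.mem_toFinset, Polynomial.mem_nthRoots (Nat.gcd_pos_of_pos_left _ (by norm_num))]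
    exact pow_gcd_eq_one.2 ⟨hall z (Finset.mem_filter.1 hz).2, (cir_iff hS).1 (Finset.mem_filter.1 hz).2⟩
  have hq11 : q ≤ 11 := by
    have := Nat.le_of_dvd (by norm_num) (Nat.gcd_dvd_left 12 (q + 1))
    omega
  have hcases : q = 3 ∨ q = 5 ∨ q = 11 := by
    interval_cases q <;> simp_all (config := { decide := true })
  haveI : CharP F q := by
    have hp : Nat.Prime q := by rcases hcases with rfl | rfl | rfl <;> norm_num
    haveI := Fact.mk hp
    exact charP_of_card_eq_prime_pow hS.card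
  have h2 : (2 : F) ≠ 0 := two_ne_zero_of hG (by rcases hcases with rfl | rfl | rfl <;> decide)
  -- if some circle element has sixth power different from one then that power is minus one
  have hminus : ¬ (∀ z : F, Cir σ z → z ^ 6 = 1) → ∀ k, uRefl hS (sf_ax_self (σ := σ) k) (-1) ∈ G := by
    intro h k
    push Not at h
    obtain ⟨z, hz, hz6⟩ := h
    have e : (Units.mk0 z hz.ne_zero) ^ 6 = -1 := by
      refine Units.ext ?_
      rw [Units.val_pow_eq_pow_val, Units.val_mk0, Units.val_neg, Units.val_one]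
      have h1 := hall z hz
      rw [show (12 : ℕ) = 6 * 2 by norm_num, pow_mul] at h1
      exact (sq_eq_one_iff.1 h1).resolve_left hz6
    have := hR (Units.mk0 z hz.ne_zero) hz k
    rwa [e] at this
  have hroots : ∀ d, 0 < d → (∀ z : F, Cir σ z → z ^ d = 1) → q + 1 ≤ d := fun d hd h => by
    rw [← card_cir hS.card hS.frob]
    refine (Finset.card_le_card (t := (Polynomial.nthRoots d (1 : F)).toFinset)
      fun z hz => ?_).trans ((Multiset.toFinset_card_le _).trans (Polynomial.card_nthRoots _ _))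
    rw [Multiset.mem_toFinset, Polynomial.mem_nthRoots hd]
    exact h z (Finset.mem_filter.1 hz).2
  rcases hcases with h | h5
  · refine three_absurd hG hn h (hminus fun h6 => ?_) hg hgm
    have h2' := hroots 2 two_pos fun z hz => by
      have := pow_gcd_eq_one.2 ⟨h6 z hz, (cir_iff hS).1 hz⟩
      rwa [show Nat.gcd 6 (q + 1) = 2 by rw [h]; decide] at this
    omega
  · refine five_absurd hG hn h5 hM (fun h11 => hminus fun h6 => ?_) hg hgm
    have := hroots 6 (by norm_num) h6
    omega

end CfsgLib.SUSix96.Mono
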