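import Mathlib
import Cfsg.Agent.UnitGeoSmall91.Types
import Cfsg.Agent.SUSix96.Mono.Small
import Cfsg.Agent.SUSix96.Mono.Spread

/-!
The monomial subgroup of `SU_6(q)`, `q ≥ 3`, is maximal.
-/

set_option autoImplicit false
set_option linter.unusedSectionVars false

namespace CfsgLib.SUSix96.Mono

open Matrix CfsgLib.UnitMono CfsgLib.UnitMono91 CfsgLib.TransvGL CfsgLib.MonoBasics CfsgLib.UnitCentres
  CfsgLib.PseudoRefl CfsgLib.CircleSums

section
variable {ι : Type} [Fintype ι] [DecidableEq ι] {F : Type*} [Field F] [Fintype F]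
variable {q : ℕ} {σ : F ≃+* F} {M : Subgroup (GL ι F)}

local notation "ax" i:max => (Pi.single i (1 : F) : ι → F)

/-- Some non-monomial element fixes an axis. -/
theorem exists_fix (hO : Over q σ M) (hn : Fintype.card ι = 6) (hq3 : 3 ≤ q) {g₀ : GL ι F}
    (hg₀ : g₀ ∈ M) (hgm₀ : ¬ IsMono g₀) :
    ∃ h ∈ M, ¬ IsMono h ∧ ∃ a, (h : Matrix ι ι F) *ᵥ ax a ∈ Submodule.span F {ax a} := by
  classical
  by_contra hno
  push Not at hno
  have hS := hO.std
  have hU : ∀ h : GL ι F, h ∈ M → ∀ a : ι,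
      (h : Matrix ι ι F) *ᵥ ax a ∈ Submodule.span F {ax a} → IsMono h := fun h hh a hab =>
    by_contra fun hm => hno h hh hm a hab
  obtain ⟨a⟩ : Nonempty ι := Fintype.card_pos_iff.1 (by omega)
  let R : Fˣ → GL ι F := fun δ => uRefl hS (sf_ax_self (σ := σ) a) δ
  have hR1 : R 1 = 1 := by
    refine ext_mulVec fun x => ?_
    show ((uRefl hS (sf_ax_self (σ := σ) a) 1 : GL ι F) : Matrix ι ι F) *ᵥ x = _
    rw [uRefl_mulVec]; simp
  have hRm : ∀ δ δ', R (δ * δ') = R δ * R δ' := fun δ δ' => by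
    show uRefl hS (sf_ax_self (σ := σ) a) (δ * δ') = uRefl hS _ δ * uRefl hS _ δ'
    refine ext_mulVec fun x => funext fun i => ?_
    rw [Units.val_mul (uRefl hS _ δ), ← mulVec_mulVec, uRefl_ax_mulVec, uRefl_ax_mulVec, uRefl_ax_mulVec]
    split_ifs
    · rw [Units.val_mul]; ring
    · ring
  have hRi : ∀ δ, R δ⁻¹ = (R δ)⁻¹ := fun δ => (uRefl_inv hS (sf_ax_self (σ := σ) a) δ).symm
  have hnorm : ∀ {g : GL ι F}, g ∈ M → ∀ {ε : Fˣ}, Cir σ (ε : F) → R (ε ^ 6) * g * (R (ε ^ 6))⁻¹ ∈ M := by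
    intro g hg ε hε
    have := UnitMono91.scalar_conj_mem hO hg hε a
    rwa [hn] at this
  have hci : ∀ {ε : Fˣ}, Cir σ (ε : F) → Cir σ ((ε⁻¹ : Fˣ) : F) := fun h => by
    rw [Units.val_inv_eq_inv_val]; exact h.inv
  let Mt : Subgroup (GL ι F) :=
    { carrier := {h | ∃ m ∈ M, ∃ ε : Fˣ, Cir σ (ε : F) ∧ h = m * R (ε ^ 6)}
      one_mem' := ⟨1, M.one_mem, 1, by simpa using cir_one σ, by rw [one_pow, hR1, mul_one]⟩
      mul_mem' := by
        rintro _ _ ⟨m, hm, ε, hε, rfl⟩ ⟨m', hm', ε', hε', rfl⟩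
        refine ⟨m * (R (ε ^ 6) * m' * (R (ε ^ 6))⁻¹), M.mul_mem hm (hnorm hm' hε), ε * ε', ?_, ?_⟩
        · rw [Units.val_mul]; exact hε.mul hε'
        · rw [mul_pow, hRm]; group
      inv_mem' := by
        rintro _ ⟨m, hm, ε, hε, rfl⟩
        refine ⟨R (ε⁻¹ ^ 6) * m⁻¹ * (R (ε⁻¹ ^ 6))⁻¹, hnorm (M.inv_mem hm) (hci hε), ε⁻¹, hci hε, ?_⟩
        rw [inv_pow, hRi]; group }
  have hMle : ∀ m ∈ M, m ∈ Mt := fun m hm => ⟨m, hm, 1, by simpa using cir_one σ, by rw [one_pow, hR1, mul_one]⟩
  have hpow : ∀ {ε : Fˣ}, Cir σ (ε : F) → Cir σ ((ε ^ 6 : Fˣ) : F) := fun h => by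
    rw [Units.val_pow_eq_pow_val, ← zpow_natCast]; exact h.zpow _
  have hG : Rigid q σ Mt :=
    { std := hS
      iso := by
        rintro _ ⟨m, hm, ε, hε, rfl⟩
        exact (hO.iso m hm).mul (uRefl_iso _ _ (hpow hε))
      tor := fun t ht hp => hMle _ (hO.dg_mem ht hp)
      perm := fun π r => by
        obtain ⟨h, hh, s, hs, hj⟩ := hO.exists_perm π r
        exact ⟨h, hMle h hh, s, hs, hj⟩
      hU := by
        rintro _ ⟨m, hm, ε, hε, rfl⟩ b hb
        have hRmono : IsMono (R (ε ^ 6)) := by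
          show IsMono (uRefl hS _ _)
          rw [uRefl_ax_eq_dg]; exact isMono_dg _
        refine (hU m hm b ?_).mul hRmono
        have hR' : (R (ε ^ 6) : Matrix ι ι F) *ᵥ ax b =
            (if b = a then ((ε ^ 6 : Fˣ) : F) else 1) • ax b := funext fun i => by
          show (((uRefl hS (sf_ax_self (σ := σ) a) (ε ^ 6) : GL ι F) : Matrix ι ι F) *ᵥ ax b) i = _
          rw [uRefl_ax_mulVec, Pi.smul_apply, smul_eq_mul]
          rcases eq_or_ne i b with rfl | hib
          · rfl
          · rw [Pi.single_eq_of_ne hib, mul_zero, mul_zero]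
        rw [Units.val_mul, ← mulVec_mulVec, hR', mulVec_smul] at hb
        refine (Submodule.smul_mem_iff _ ?_).1 hb
        split_ifs
        · exact Units.ne_zero _
        · exact one_ne_zero }
  refine rigid_absurd hG hn hq3 (fun h h1 h2 h3 => hMle h (hO.mono_mem h h1 h2 h3)) (fun ε hε k => ?_)
    (hMle g₀ hg₀) hgm₀
  refine ⟨uRefl hS (sf_ax_self (σ := σ) k) (ε ^ 6) * (R (ε ^ 6))⁻¹, ?_, ε, hε, by rw [inv_mul_cancel_right]⟩
  rcases eq_or_ne k a with rfl | hk
  · rw [mul_inv_cancel]; exact M.one_mem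
  · rw [show uRefl hS (sf_ax_self (σ := σ) k) (ε ^ 6) * (R (ε ^ 6))⁻¹ = dg (torPair k a (ε ^ 6)) from ?_]
    · exact hO.torPair_mem hk (hpow hε)
    rw [← hRi]
    refine ext_mulVec fun x => funext fun i => ?_
    show ((uRefl hS _ _ * uRefl hS _ _ : GL ι F) : Matrix ι ι F).mulVec x i = _
    rw [Units.val_mul, ← mulVec_mulVec, uRefl_ax_mulVec, uRefl_ax_mulVec, dg_mulVec]
    unfold torPair
    rcases eq_or_ne i k with rfl | hik
    · simp [hk]
    · split_ifs <;> simp_all

/-- All isotropic vectors are centres. -/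
theorem all_centres (hO : Over q σ M) (hq3 : 3 ≤ q) (hn : Fintype.card ι = 6) {g₀ : GL ι F}
    (hg₀ : g₀ ∈ M) (hnm : ¬ IsMono g₀) : ∀ y, sf σ y y = 0 → Centre hO.std.isUnitary M y := by
  have hn6 : 6 ≤ Fintype.card ι := by omega
  obtain ⟨h, hh, hhm, a, ha⟩ := exists_fix hO hn hq3 hg₀ hnm
  obtain ⟨c, hc⟩ := Submodule.mem_span_singleton.1 ha
  obtain ⟨w, hw, hwa, hw0⟩ := exists_centre hO hn6 hq3 hh hhm hc.symm
  obtain ⟨l, m, x, y, hlm, hx, hy, hC⟩ := pair_seed hO hn6 hq3 hw hwa hw0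
  exact all_isotropic hO hn6
    (fun hij _ _ hx' hy' h0 => pair_all hO hn6 hlm hx hy hC hij hx' hy' h0) hq3

end

open Cfsg in
/-- The stabiliser of a decomposition into orthogonal axes is maximal. -/
theorem monomial_maximal {F : Type*} [Field F] [Fintype F] (n q : ℕ) (hF : Fintype.card F = q ^ 2) (hn : n = 6) (hq3 : 3 ≤ q) {t : ℕ} (k : ℕ) (hk1 : k = 1) (D : Fin t → Submodule F (Fin n → F)) (hD : Cfsg.Geo.IsNondegenerateMDecomposition (Cfsg.hermForm n F q) k D) : Cfsg.Geo.IsMaximalIn (Cfsg.GU n F q ⊓ Cfsg.Geo.specialLinear (Fin n) F) (Cfsg.Geo.decompositionStabilizer D ⊓ (Cfsg.GU n F q ⊓ Cfsg.Geo.specialLinear (Fin n) F)) := by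
  classical
  open Matrix CfsgLib.TransvGL CfsgLib.UnitCentres CfsgLib.UnitMono CfsgLib.UnitBlock CfsgLib.CircleSums
    CfsgLib.MonoBasics CfsgLib.DecompProj in
  exact (by
    have hkt := mul_eq_card hD.decomp
    rw [Fintype.card_fin] at hkt
    have hk0 := hD.decomp.pos
    have ht2 := hD.decomp.two_le
    obtain ⟨σ, hσ, hσne, -⟩ := CfsgLib.LinAlg.Witt.exists_conjAut hF
    have hS : Std q σ := ⟨hF, hσ⟩
    have hsf : (sf σ : (Fin n → F) → (Fin n → F) → F) = Cfsg.hermForm n F q := by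
      funext x y; simp [sf, Cfsg.hermForm, hσ]
    have hfn : Cfsg.Geo.IsUnitaryForm σ (Cfsg.hermForm n F q) := hsf ▸ hS.isUnitary
    have hnd : ∀ i, CfsgLib.Unitary.IsNondeg q (D i) := fun i u hu h => by
      by_contra hne
      obtain ⟨-, x, hx, hxu⟩ := hD.nondegenerate i u hu hne
      exact hxu (h x hx)
    choose b hb hbD hbspan using fun i =>
      CfsgLib.Unitary.exists_orthonorm_basis hF (hnd i) (hD.decomp.finrank_eq i)
    let G : Fin k × Fin t → (Fin n → F) := fun p => b p.2 p.1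
    have hG : ∀ p p', Cfsg.hermForm n F q (G p) (G p') = if p = p' then 1 else 0 := by
      rintro ⟨j, i⟩ ⟨j', i'⟩
      by_cases h : i = i'
      · subst h
        rw [show Cfsg.hermForm n F q (G (j, i)) (G (j', i)) = _ from hb i j j']
        simp
      · rw [hD.orthogonal i i' h _ (hbD i j) _ (hbD i' j'), if_neg (by simp [h])]
    let L0 : (Fin k × Fin t → F) →ₗ[F] (Fin n → F) := Fintype.linearCombination F G
    have hL0 : ∀ x, L0 x = ∑ p, x p • G p := fun x => rfl
    have hcoord : ∀ x p, Cfsg.hermForm n F q (L0 x) (G p) = x p := fun x p => by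
      rw [hL0, CfsgLib.Unitary.herm_sum_left, Finset.sum_eq_single p]
      · rw [CfsgLib.Unitary.herm_smul_left, hG, if_pos rfl, mul_one]
      · intro p' _ hp'
        rw [CfsgLib.Unitary.herm_smul_left, hG, if_neg hp', mul_zero]
      · simp
    have hinj : Function.Injective L0 := fun x y h => funext fun p => by
      rw [← hcoord x p, h, hcoord]
    let L : (Fin k × Fin t → F) ≃ₗ[F] (Fin n → F) :=
      LinearMap.linearEquivOfInjective L0 hinj (by
        rw [Module.finrank_fintype_fun_eq_card, Module.finrank_fintype_fun_eq_card, Fintype.card_prod,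
          Fintype.card_fin, Fintype.card_fin, Fintype.card_fin, ← hkt, mul_comm])
    have hL : ∀ x, L x = L0 x := fun x => rfl
    have hLf : ∀ x y, Cfsg.hermForm n F q (L x) (L y) = sf σ x y := fun x y => by
      rw [hL, hL, hL0 y, CfsgLib.Unitary.herm_sum_right hF, sf]
      refine Finset.sum_congr rfl fun p _ => ?_
      rw [CfsgLib.Unitary.herm_smul_right, hcoord, hσ, mul_comm]
    have hLsupp : ∀ i y, L (emb i y) ∈ D i := fun i y => by
      rw [hL, hL0]
      refine Submodule.sum_mem _ fun p _ => ?_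
      obtain ⟨j, i'⟩ := p
      by_cases h : i' = i
      · subst h; exact Submodule.smul_mem _ _ (hbD i' j)
      · simp [emb, h]
    have hLsurj : ∀ i, ∀ v ∈ D i, ∃ y, L (emb i y) = v := fun i v hv => by
      rw [← hbspan i, Submodule.mem_span_range_iff_exists_fun] at hv
      obtain ⟨c, rfl⟩ := hv
      refine ⟨c, ?_⟩
      rw [hL, hL0, Fintype.sum_prod_type]
      refine Finset.sum_congr rfl fun j _ => ?_
      rw [Finset.sum_eq_single i (fun i' _ h => by simp [emb, h]) (by simp)]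
      simp [emb, G]
    set Φ := Cfsg.Agent.S5655.transport L with hΦ
    have hΦiso : ∀ g, g ∈ (Cfsg.GU n F q ⊓ Cfsg.Geo.specialLinear (Fin n) F).comap Φ ↔
        Iso (sf σ) g ∧ g ∈ Cfsg.Geo.specialLinear (Fin k × Fin t) F := fun g => by
      rw [Subgroup.mem_comap, mem_special, CfsgLib.PseudoRefl.mem_specialLinear_iff,
        CfsgLib.PseudoRefl.mem_specialLinear_iff, Cfsg.Agent.S5655.det_transport]
      refine and_congr_left' ⟨fun h x y => ?_, fun h u v => ?_⟩
      · rw [← hLf, ← hLf, ← Cfsg.Agent.S5655.transport_mulVec, ← Cfsg.Agent.S5655.transport_mulVec, h]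
      · obtain ⟨x, rfl⟩ := L.surjective u
        obtain ⟨y, rfl⟩ := L.surjective v
        rw [Cfsg.Agent.S5655.transport_mulVec, Cfsg.Agent.S5655.transport_mulVec, hLf, hLf, h]
    have hstab : ∀ g, StabBlocks g → Φ g ∈ Cfsg.Geo.decompositionStabilizer D := by
      rintro g ⟨π, hπ⟩
      refine mem_decompositionStabilizer_of_maps hD.decomp π fun i v hv => ?_
      obtain ⟨y, rfl⟩ := hLsurj i v hv
      obtain ⟨y', hy'⟩ := hπ i y
      rw [Cfsg.Agent.S5655.transport_mulVec, hy']
      exact hLsupp _ _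
    refine ⟨lt_of_le_of_ne inf_le_right ?_, fun M hHM hMK => ?_⟩
    · -- a transvection mixing members
      intro e
      obtain ⟨j0⟩ : Nonempty (Fin k) := ⟨⟨0, hk0⟩⟩
      set i0 : Fin t := ⟨0, by omega⟩
      set i1 : Fin t := ⟨1, by omega⟩
      have hi01 : i0 ≠ i1 := by simp [i0, i1]
      have hout : ∀ (z : Fin k × Fin t → F) (c : F) (y : Fin k → F), sf σ z z = 0 → c + σ c = 0 →
          ∀ (hz : sf σ z z = 0), ∀ p p', p ≠ p' →
          blk (emb i0 y + (c * sf σ (emb i0 y) z) • z) p ≠ 0 →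
          blk (emb i0 y + (c * sf σ (emb i0 y) z) • z) p' ≠ 0 → False := by
        intro z c y _ hc hz p p' hpp hp hp'
        have hmem : uT (hS.isUnitary) hz c ∈ (Cfsg.GU n F q ⊓ Cfsg.Geo.specialLinear (Fin n) F).comap Φ :=
          (hΦiso _).2 ⟨uT_iso _ hz hc, uT_mem_specialLinear _ hz c⟩
        rw [Subgroup.mem_comap, ← e] at hmem
        obtain ⟨i, hi⟩ := image_mem_of_stabilizer (Subgroup.mem_inf.1 hmem).1 (hLsupp i0 y)
        obtain ⟨y', hy'⟩ := hLsurj i _ hi
        rw [Cfsg.Agent.S5655.transport_mulVec, uT_mulVec] at hy'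
        rw [← L.injective hy', blk_emb] at hp hp'
        have h1 : p = i := by by_contra h; exact hp (if_neg h)
        have h2 : p' = i := by by_contra h; exact hp' (if_neg h)
        exact hpp (h1.trans h2.symm)
      obtain ⟨c, hc0, hc, hc1⟩ : ∃ c : F, c ≠ 0 ∧ c + σ c = 0 ∧ c + 1 ≠ 0 := by
        obtain ⟨c, hc0, hc⟩ := exists_traceZero (hS.isUnitary (ι := Fin k))
        by_cases h1 : c + 1 = 0
        · obtain ⟨r, hr, hr'⟩ := Finset.exists_mem_notMem_of_card_lt_card (s := ({0, 1} : Finset F))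
            (t := Finset.univ.filter fun z : F => σ z = z)
            (by rw [card_fixed hF hσ]; have := hS.two_le; exact Finset.card_le_two.trans_lt (by omega))
          simp only [Finset.mem_insert, Finset.mem_singleton, not_or] at hr'
          refine ⟨r * c, mul_ne_zero hr'.1 hc0, ?_, fun e => hr'.2 (by linear_combination r * h1 - e)⟩
          rw [map_mul, (Finset.mem_filter.1 hr).2]
          linear_combination r * hc
        · exact ⟨c, hc0, hc, h1⟩
      obtain ⟨ξ, hξ⟩ := exists_norm hF hσ (r := (-1 : F)) (by simp)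
      have hξ0 : ξ ≠ 0 := fun e => by simp [e] at hξ
      set z : Fin k × Fin t → F := emb i0 (Pi.single j0 1) + emb i1 (Pi.single j0 ξ) with hzdef
      have hz : sf σ z z = 0 := by
        rw [sf_two hS hi01 (fun p h1 h2 => by rw [hzdef, blk_add, blk_emb, blk_emb, if_neg h1, if_neg h2, add_zero]),
          hzdef, blk_add, blk_add, blk_emb, blk_emb, blk_emb, blk_emb, if_pos rfl, if_neg hi01,
          if_neg hi01.symm, if_pos rfl, add_zero, zero_add, sf_ax_self]
        simp [sf, Pi.single_apply, apply_ite σ]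
        linear_combination hξ
      refine hout z c (Pi.single j0 1) hz hc hz i0 i1 hi01 ?_ ?_
      · intro h
        have := congrFun h j0
        simp [blk, emb, hzdef, sf_emb_left, sf_ax_left, hi01, hi01.symm] at this
        exact hc1 (by linear_combination this)
      · intro h
        have := congrFun h j0
        simp [blk, emb, hzdef, sf_emb_left, sf_ax_left, hi01, hi01.symm] at this
        rcases this with h' | h'
        · exact hc0 h'
        · exact hξ0 h'
    by_cases hle : M ≤ Cfsg.Geo.decompositionStabilizer D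
    · exact Or.inl (le_antisymm (le_inf hle hMK) hHM)
    obtain ⟨g₀, hg₀M, hg₀⟩ := SetLike.not_le_iff_exists.1 hle
    obtain ⟨g, rfl⟩ := Cfsg.Agent.S5655.transport_surjective L g₀
    refine Or.inr (le_antisymm hMK ?_)
    set M' := M.comap Φ with hM'
    have hmem : ∀ x, Iso (sf σ) x → x ∈ Cfsg.Geo.specialLinear (Fin k × Fin t) F → StabBlocks x → x ∈ M' :=
      fun x h1 h2 h3 => hHM (Subgroup.mem_inf.2 ⟨hstab x h3, (hΦiso x).2 ⟨h1, h2⟩⟩)
    have hiso' : ∀ x ∈ M', Iso (sf σ) x ∧ x ∈ Cfsg.Geo.specialLinear (Fin k × Fin t) F :=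
      fun x hx => (hΦiso x).1 (hMK hx)
    have hcent : ∀ y, sf σ y y = 0 → Centre hS.isUnitary M' y := by
      have hmono : ∀ x : GL (Fin k × Fin t) F, IsMono x → StabBlocks x := fun x hx => by
        subst hk1
        choose π hπ using hx
        have hπi := mono_index_injective hπ
        refine ⟨Equiv.ofBijective (fun i => (π (0, i)).2) (Finite.injective_iff_bijective.1 fun a a' h => ?_),
          fun i y => ⟨blk ((x : Matrix _ _ F) *ᵥ emb i y) ((π (0, i)).2), emb_eq_of_blk fun l hl => ?_⟩⟩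
        · have : π (0, a) = π (0, a') := Prod.ext (Subsingleton.elim _ _) h
          exact congrArg Prod.snd (hπi this)
        · have e : emb i y = y 0 • (Pi.single ((0 : Fin 1), i) 1 : Fin 1 × Fin t → F) := funext fun p => by
            obtain ⟨j, i'⟩ := p
            obtain rfl : j = 0 := Subsingleton.elim _ _
            by_cases h : i' = i
            · subst h; simp [emb]
            · simp [emb, h]
          obtain ⟨c, hc⟩ := Submodule.mem_span_singleton.1 (hπ (0, i))
          rw [e, mulVec_smul, ← hc]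
          funext j
          have : (j, l) ≠ π (0, i) := fun h => hl (by simpa using congrArg Prod.snd h)
          simp [blk, this]
      have hO : Over q σ M' :=
        ⟨hS, fun x h1 h2 h3 => hmem x h1 h2 (hmono x h3), fun x hx => (hiso' x hx).1,
          fun x hx => (hiso' x hx).2⟩
      exact all_centres hO hq3 (by rw [Fintype.card_prod, Fintype.card_fin, Fintype.card_fin, hk1]; subst hk1; omega)
        (g₀ := g) hg₀M (fun h => hg₀ (hstab g (hmono g h)))
    refine gu_le_of_centres hF (by omega) hσ hfn fun v hv => ?_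
    obtain ⟨y, rfl⟩ := L.surjective v
    rw [hLf] at hv
    obtain ⟨hv', hc⟩ := hcent y hv
    refine ⟨by rw [hLf]; exact hv, fun c hc0 => ?_⟩
    convert Subgroup.mem_comap.1 (hc c hc0) using 1
    refine ext_mulVec fun u => ?_
    obtain ⟨x, rfl⟩ := L.surjective u
    rw [Cfsg.Agent.S5655.transport_mulVec, uT_mulVec, uT_mulVec, hLf, map_add, map_smul])



end CfsgLib.SUSix96.Mono
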